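import Cfsg.Agent.H63.AnDefs2

/-!
# A standard subgroup of type `Aₙ`: the element interchanging `t` and `t w`
-/

set_option autoImplicit false

namespace Cfsg.Agent.H43.AnSwp

open Cfsg Cfsg.Agent.H63 Cfsg.Agent.H63.AN Subgroup
open Cfsg.Agent.H7.AA
open Cfsg.Agent.H78 (altOn symOn mem_altOn commute_of_mem_symOn swap_mem_symOn)
open Equiv (swap Perm)
open Equiv.Perm (sign)

universe u

variable {G : Type u} [Group G] {α : Type} [Fintype α] [DecidableEq α]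
  {ψ : alternatingGroup α →* G}

/-- The automorphism of the alternating group on `S` induced by an element of the normaliser. -/
theorem exists_phi (hi : Function.Injective ψ) {S : Finset α} {g : G} (hg : g ∈ N[LS ψ S]) :
    ∃ φ : altOn S →* Perm α, Function.Injective φ ∧ φ.range = altOn S ∧
      ∀ σ : altOn S, g * ev ψ σ * g⁻¹ = ev ψ (φ σ) := by
  have h1 : ∀ σ : altOn S, ∃ τ ∈ altOn S, ev ψ τ = g * ev ψ σ * g⁻¹ := fun σ =>
    mem_LS.1 ((mem_normalizer_iff.1 hg _).1 (mem_LS.2 ⟨σ, σ.2, rfl⟩))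
  choose f hf hf' using h1
  have sf : ∀ σ, sign (f σ) = 1 := fun σ => (mem_altOn.1 (hf σ)).2
  have ss : ∀ σ : altOn S, sign (σ : Perm α) = 1 := fun σ => (mem_altOn.1 σ.2).2
  refine ⟨MonoidHom.mk' f fun σ τ => ev_inj hi (sf _) (by simp [sf]) ?_, fun σ τ e => ?_,
    le_antisymm ?_ fun τ hτ => ?_, fun σ => (hf' σ).symm⟩
  · rw [ev_mul (sf σ) (sf τ), hf', hf', hf', Subgroup.coe_mul, ev_mul (ss σ) (ss τ)]
    group
  · have e1 : f σ = f τ := e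
    have e2 := hf' σ
    rw [e1, hf'] at e2
    exact Subtype.ext (ev_inj hi (ss _) (ss _) (by simpa using e2.symm))
  · rintro _ ⟨σ, rfl⟩
    exact hf σ
  · obtain ⟨σ, hσ, e⟩ := mem_LS.1 ((mem_normalizer_iff.1 (inv_mem hg) _).1
      (mem_LS.2 ⟨τ, hτ, rfl⟩))
    refine ⟨⟨σ, hσ⟩, ev_inj hi (sf _) (mem_altOn.1 hτ).2 ((hf' _).trans ?_)⟩
    rw [e]
    group

theorem exists_even {a b c d : α} (hn : [a, b, c, d].Nodup) {ρ : Perm α}
    (hρ : ρ ∈ symOn ({a, b, c, d}ᶜ : Finset α)) :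
    ∃ π : Perm α, sign π = 1 ∧ π * d2 a b c d = d2 a b c d * π ∧
      ∀ σ ∈ altOn ({a, b, c, d}ᶜ : Finset α), π * σ * π⁻¹ = ρ * σ * ρ⁻¹ := by
  obtain ⟨h1, h2, h3, h4, h5, h6⟩ := nodup4.1 hn
  have m1 : swap a b ∈ symOn ({a, b, c, d} : Finset α) := swap_mem_symOn (by simp) (by simp)
  have m2 : swap c d ∈ symOn ({a, b, c, d} : Finset α) := swap_mem_symOn (by simp) (by simp)
  have c1 : Commute ρ (d2 a b c d) :=
    commute_of_mem_symOn disjoint_compl_left hρ (mul_mem m1 m2)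
  rcases Int.units_eq_one_or (sign ρ) with s | s
  · exact ⟨ρ, s, c1, fun _ _ => rfl⟩
  refine ⟨ρ * swap a b, by simp [s, h1], (c1.mul_left ?_).eq, fun σ hσ => ?_⟩
  · refine (Commute.refl _).mul_right ?_
    ext x
    simp only [Equiv.Perm.mul_apply, Equiv.swap_apply_def]
    grind
  · have := (commute_of_mem_symOn disjoint_compl_right m1 hσ.1).eq
    rw [mul_assoc ρ, this]
    group

theorem swp (aut : AutStmt) (nrm : NrmStmt.{u}) (sw0 : Sw0Stmt.{u}) : SwpStmt.{u} := by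
  intro G _ _ α _ _ ψ t B K F te
  obtain ⟨g, a, b, c, d, s⟩ := sw0 ψ t B K F te
  obtain ⟨φ, hi, hr, hφ⟩ := exists_phi B.inj (nrm ψ t B K F g a b c d s)
  obtain ⟨h1, h2, h3, h4, h5, h6⟩ := nodup4.1 s.nd
  have c4 : ({a, b, c, d} : Finset α).card = 4 := by
    rw [Finset.card_insert_of_notMem (by simp [h1, h2, h3]),
      Finset.card_insert_of_notMem (by simp [h4, h5]), Finset.card_pair h6]
  have cc : ({a, b, c, d}ᶜ : Finset α).card = Fintype.card α - 4 := by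
    rw [Finset.card_compl, c4]
  have n9 := B.nine
  rcases aut α _ φ hi (by omega) hr with ⟨ρ, hρ, e⟩ | ⟨e1, e2⟩
  · obtain ⟨π, p1, p2, p3⟩ := exists_even s.nd hρ
    have k1 : Commute (ev ψ π) (ev ψ (d2 a b c d)) := ev_comm p1 (sign_d2 h1 h6) p2
    have k2 : Commute (ev ψ π) t := (KA_ev B.tK π).symm
    refine Or.inl ⟨(ev ψ π)⁻¹ * g, a, b, c, d, ⟨s.nd, ?_, k1.inv_left.mul_left s.gw⟩,
      fun σ hσ => ?_⟩
    · calc _ = (ev ψ π)⁻¹ * (g * t * g⁻¹) * ev ψ π := by group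
        _ = _ := by rw [s.gt, mul_assoc, ← (k2.mul_right k1).eq, inv_mul_cancel_left]
    · have k3 := hφ ⟨σ, hσ⟩
      rw [e, ← p3 σ hσ, ev_conj p1 (mem_altOn.1 hσ).2] at k3
      change (ev ψ π)⁻¹ * g * ev ψ σ = ev ψ σ * ((ev ψ π)⁻¹ * g)
      calc _ = (ev ψ π)⁻¹ * (g * ev ψ σ * g⁻¹) * g := by group
        _ = _ := by rw [k3]; group
  · exact Or.inr ⟨by omega, g, a, b, c, d, s, fun σ hσ =>
      ⟨φ ⟨σ, hσ⟩, hr.le ⟨⟨σ, hσ⟩, rfl⟩, hφ ⟨σ, hσ⟩, e2 ⟨σ, hσ⟩⟩⟩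

end Cfsg.Agent.H43.AnSwp
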