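import Cfsg.Agent.H43.Simple
import Cfsg.Agent.H43.Co2M

/-! The second Conway group as a rank three group of degree 2300. -/

set_option autoImplicit false
set_option maxRecDepth 200000

namespace Cfsg.Agent.H43

open MulAction

theorem PrimAt.suborbits {G Γ Ω : Type*} [Group G] [Group Γ] [MulAction Γ Ω] {M : Subgroup Γ}
    (e : G ≃* M) {a b : Ω} (h : PrimAt M a) (hab : b ≠ a) :
    ∃ H : Subgroup G, IsCoatom H ∧ H.index = Nat.card Ω ∧ ∀ c : Ω, ∃ q : G ⧸ H,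
      (orbit H q).ncard = (orbit ↥(M ⊓ stabilizer Γ a) c).ncard := by
  let H : Subgroup G := ((stabilizer Γ a).subgroupOf M).comap e.toMonoidHom
  have hH : ∀ g, g ∈ H ↔ (e g : Γ) • a = a := fun _ => Iff.rfl
  have key : ∀ g g' : G, g⁻¹ * g' ∈ H ↔ (e g : Γ) • a = (e g' : Γ) • a := fun g g' => by
    rw [hH, map_mul, map_inv, Subgroup.coe_mul, Subgroup.coe_inv, mul_smul, inv_smul_eq_iff, eq_comm]
  let f : G ⧸ H → Ω := Quotient.lift (fun g => (e g : Γ) • a) fun g g' hg =>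
    (key g g').1 (QuotientGroup.leftRel_apply.1 hg)
  have hi : Function.Injective f := by
    rintro ⟨g⟩ ⟨g'⟩ hg
    exact QuotientGroup.eq.2 ((key g g').2 hg)
  have hs : Function.Surjective f := fun c => by
    obtain ⟨g, hg, rfl⟩ := h.trans c
    obtain ⟨g', hg'⟩ := e.surjective ⟨g, hg⟩
    exact ⟨(g' : G ⧸ H), by change (e g' : Γ) • a = _; rw [hg']⟩
  have hf : ∀ (g : G) q, f (g • q) = (e g : Γ) • f q := by
    rintro g ⟨g'⟩
    change (e (g * g') : Γ) • a = (e g : Γ) • (e g' : Γ) • a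
    rw [map_mul, Subgroup.coe_mul, mul_smul]
  refine ⟨H, Subgroup.isCoatom_comap_of_surjective e.surjective (h.isCoatom hab),
    Nat.card_eq_of_bijective f ⟨hi, hs⟩, fun c => ?_⟩
  obtain ⟨q, rfl⟩ := hs c
  refine ⟨q, ?_⟩
  rw [← Set.ncard_image_of_injective _ hi]
  congr 1
  ext x
  rw [mem_orbit_subgroup_iff]
  constructor
  · rintro ⟨_, ⟨g, rfl⟩, rfl⟩
    exact ⟨e g, ⟨(e g).2, (hH g).1 g.2⟩, (hf g q).symm⟩
  · rintro ⟨g, hg, rfl⟩
    obtain ⟨g', hg'⟩ := e.surjective ⟨g, hg.1⟩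
    have h1 : (e g' : Γ) = g := congrArg Subtype.val hg'
    exact ⟨g' • q, ⟨⟨g', (hH g').2 (h1 ▸ hg.2)⟩, rfl⟩, by rw [hf, h1]⟩

namespace Co2M

theorem prim : PrimAt (grp 2300 lb_E) (⟨0, by decide⟩ : Fin 2300) :=
  primAt_of_primB lb_E_ok (by decide) (hw := [nat_lit 5, nat_lit 7]) (ts := [nat_lit 515, nat_lit 1])
    (by decide +kernel)

theorem suborbit {b m : ℕ} (hb : b < 2300)
    (h : band (closedB (evalW F1 lb_E) [5, 7, 9, 11, 13, 15, 17, 19, 21, 23, 25, 27, 29, 31, 33]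
        (orb (evalW F1 lb_E) [5, 7, 9, 11, 13, 15, 17, 19, 21, 23, 25, 27, 29, 31, 33]
          (Nat.shiftLeft 1 b)))
      (Nat.beq (pcnt 2300 (orb (evalW F1 lb_E)
        [5, 7, 9, 11, 13, 15, 17, 19, 21, 23, 25, 27, 29, 31, 33] (Nat.shiftLeft 1 b))) m) = true) :
    (orbit ↥(grp 2300 lb_E ⊓ stabilizer (Equiv.Perm (Fin 2300)) (⟨0, by decide⟩ : Fin 2300))
      (⟨b, hb⟩ : Fin 2300)).ncard = m := by
  obtain ⟨h1, h2⟩ := band_eq_true.1 h
  rw [(Ch.Exact.tail exact (by decide)).eq, ← Nat.eq_of_beq_eq_true h2]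
  exact ncard_orbit_eq hn.2 (den_evalW (rep_F1 _) lb_E_ok _) hb h1

end Co2M

end Cfsg.Agent.H43

namespace Cfsg.Agent.H10.C2

open Cfsg.Agent.H43

theorem rank_three_of_iso {G : Type*} [Group G] (h : Spor.IsoCo2 G) :
    ∃ H : Subgroup G, IsCoatom H ∧ H.index = 2300 ∧ ∃ q₁ q₂ : G ⧸ H,
      (MulAction.orbit H q₁).ncard = 891 ∧ (MulAction.orbit H q₂).ncard = 1408 := by
  obtain ⟨H, h1, h2, h3⟩ := Co2M.prim.suborbits
    ((h.some.trans Co2M.equiv).trans (MulEquiv.subgroupCongr Co2M.eq_lb))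
    (b := ⟨1, by decide⟩) (fun e => Nat.one_ne_zero (congrArg Fin.val e))
  obtain ⟨q₁, e₁⟩ := h3 ⟨1, by decide⟩
  obtain ⟨q₂, e₂⟩ := h3 ⟨3, by decide⟩
  exact ⟨H, h1, h2.trans (Nat.card_fin _), q₁, q₂, e₁.trans (Co2M.suborbit _ (by decide +kernel)),
    e₂.trans (Co2M.suborbit _ (by decide +kernel))⟩

end Cfsg.Agent.H10.C2
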