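import Cfsg.Agent.H21.DSDefs

/-!
# Blocks of `p`-solvable groups with abelian defect groups: the Fong reduction
-/

set_option autoImplicit false
set_option linter.style.haveILetI false

namespace Cfsg.Agent.H43.DsRed

open Cfsg Cfsg.Agent.H8
open Cfsg.Agent.H19 hiding block_nonempty block_eq_of_mem mem_blockOf_self isPBlock_blockOf
open Cfsg.Agent.H17 hiding trunc cj_ZG cj_incl incl_trunc
open Cfsg.Agent.H18 hiding stab mem_stab stabilizesBlock_iff
open Cfsg.Agent.H22 Cfsg.Agent.H21.DS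
open scoped ComplexConjugate Pointwise MonoidAlgebra commutatorElement

universe u

section Aux

variable {G : Type u} [Group G] [Finite G] {M : Ideal AlgInt} {p : ℕ} [Fact p.Prime]

/-- the idempotent of the Brauer correspondent -/
theorem bid_eq_br (hM : IsPModular p M) {P : Subgroup G} (hP : IsPGroup p P)
    {B : Set (IrrCharacter G)} {c : Set (IrrCharacter (Nz P))} (hc : IsPBlock M c)
    (hD : IsDefectGroup p M c (P.subgroupOf (Nz P))) (h : IsInducedBlock M (Nz P) c B) :
    bid M (Nz P) c = br P (gid M B) := by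
  have h1 := IsInducedBlock.br_eq_of_Nz_le hM le_rfl h hD
  haveI : (P.subgroupOf (Nz P)).Normal := H17.normal_subgroupOf_of_le_Nz le_rfl
  have h2 := br_idem_of_normal hM (isPGroup_subgroupOf hP (Nz P))
    (isIdempotentElem_eB (lamClosed_of_isPBlock hM.2.1 hc))
  rw [← incl_br_subgroupOf Subgroup.le_normalizer, h2] at h1
  exact h1.symm

omit [Fact p.Prime] in
theorem bid_mul_eq_zero {N : Subgroup G} [N.Normal] (hM : M.IsMaximal)
    {b b' : Set (IrrCharacter N)} (hb : IsPBlock M b) (hb' : IsPBlock M b') (h : b ≠ b') :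
    bid M N b * bid M N b' = 0 := by
  rw [bid_mul (lamClosed_of_isPBlock hM hb) (lamClosed_of_isPBlock hM hb'),
    block_inter_eq_empty hM hb hb' h]
  change incl N (eB M ∅).1 = 0
  rw [eB_empty]
  exact map_zero _

omit [Fact p.Prime] in
/-- the idempotent of the Fong-Reynolds correspondent -/
theorem gid_mul_bid {G : Type u} [Group G] [Fintype G] (hM : M.IsMaximal) {N : Subgroup G}
    [N.Normal] {b : Set (IrrCharacter N)} (hb : IsPBlock M b) {T : Subgroup G} (hNT : N ≤ T)
    (hT : ∀ g, g ∈ T ↔ g ∈ stab N b) {B' : Set (IrrCharacter T)} (hB' : IsPBlock M B')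
    (hc : Covers (N.subgroupOf T) B' (toSub hNT '' b)) (hI : IndInj T B') :
    gid M (indSet T B') * bid M N b = bid M T B' := by
  classical
  have hbl := lamClosed_of_isPBlock hM hb
  have hB'l := lamClosed_of_isPBlock hM hB'
  have hb1 : IsPBlock M (toSub hNT '' b) := isPBlock_toSub hNT hb
  have h1 : bid M T B' * bid M N b = bid M T B' := by
    have h2 : gid M (above (N.subgroupOf T) (toSub hNT '' b)) =
        bid M (N.subgroupOf T) (toSub hNT '' b) :=
      gid_above_of_stab _ fun t => (mem_stab_toSub hNT t b).2 ((hT _).1 t.2)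
    have h3 := hc.subset hM hB' hb1
    rw [← incl_bid_subgroupOf hNT b, ← h2]
    change incl T (gid M B') * _ = incl T (gid M B')
    rw [← map_mul, gid_mul hB'l (lamClosed_above _ (lamClosed_of_isPBlock hM hb1)),
      Set.inter_eq_left.2 h3]
  haveI : Fintype (G ⧸ T) := Fintype.ofFinite _
  rw [hI.gid_indSet hB'l, Finset.sum_mul, Finset.sum_eq_single ((1 : G) : G ⧸ T)]
  · have h4 : (((1 : G) : G ⧸ T)).out ∈ T := by
      have := QuotientGroup.eq.1 (QuotientGroup.out_eq' ((1 : G) : G ⧸ T))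
      simpa using this
    rw [(mem_fixAlg.1 (bid_mem T B')).2 _ h4, h1]
  · intro s _ hs
    have h4 : s.out⁻¹ ∉ T := fun h => hs (by
      rw [← QuotientGroup.out_eq' s, QuotientGroup.eq]
      simpa using h)
    have h5 : cjSet N s.out⁻¹ b ≠ b := fun h => h4 ((hT _).2 h)
    rw [← cj_cj_inv s.out (bid M N b), ← map_mul, cj_bid, ← h1, mul_assoc,
      bid_mul_eq_zero hM hb (isPBlock_cjSet N _ hb) h5.symm, mul_zero, map_zero]
  · intro h
    exact absurd (Finset.mem_univ _) h

/-- the stabiliser of the Glauberman correspondent -/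
theorem mem_stab_glau (hM : IsPModular p M) {K : Subgroup G} [K.Normal]
    (hKp : ¬ p ∣ Nat.card K) {b : Set (IrrCharacter K)} (hb : IsPBlock M b) {P : Subgroup G}
    (hP : IsPGroup p P) (hst : P ≤ stab K b) {b' : Set (IrrCharacter (K.subgroupOf (Nz P)))}
    (hb' : IsPBlock M b')
    (he : incl (Nz P) (bid M (K.subgroupOf (Nz P)) b') = br P (bid M K b)) (h : Nz P) :
    h ∈ stab (K.subgroupOf (Nz P)) b' ↔ (h : G) ∈ stab K b := by
  haveI := charP_kk hM
  have hmax : M.IsMaximal := hM.2.1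
  have hbl := lamClosed_of_isPBlock hmax hb
  rw [← cj_bid_eq_iff (lamClosed_of_isPBlock hmax hb'), ← (incl_injective (Nz P)).eq_iff,
    ← cj_incl, he, cj_br_of_mem h.2]
  refine ⟨fun h1 => ?_, fun h1 => by rw [(cj_bid_eq_iff hbl).2 h1]⟩
  by_contra h2
  have h3 : cjSet K h b ≠ b := h2
  have h4 := bid_mul_eq_zero hmax (isPBlock_cjSet K (h : G) hb) hb h3
  have hfix : ∀ g ∈ P, cj g (bid M K b) = bid M K b := fun g hg => (cj_bid_eq_iff hbl).2 (hst hg)
  have hfix' : ∀ g ∈ P, cj g (cj (h : G) (bid M K b)) = cj (h : G) (bid M K b) := fun g hg => by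
    have h5 : (h : G)⁻¹ * g * h ∈ P := by
      have := (Subgroup.mem_normalizer_iff.1 ((Nz P).inv_mem h.2) g).1 hg
      simpa using this
    rw [← cj_mul, show g * (h : G) = h * ((h : G)⁻¹ * g * h) by group, cj_mul, hfix _ h5]
  rw [← cj_bid] at h4
  have h6 := br_mul hP hfix' hfix
  rw [h4, map_zero, h1, ← br_mul hP hfix hfix, bid_idem hbl] at h6
  exact br_bid_ne_zero_of_not_dvd hM hKp hb P h6.symm

omit [Fact p.Prime] in
/-- the multiplicity of the Glauberman correspondent is prime to `p` -/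
theorem not_dvd_mult (hM : IsPModular p M) {K C : Type u} [Group K] [Finite K] [Group C]
    [Fintype C] (hC : ¬ p ∣ Nat.card C) (hK : ¬ p ∣ Nat.card K) (i : C → K)
    (θ : IrrCharacter K) (φ : IrrCharacter C)
    (h : ∀ c, red M (blockCoeff {φ} c) = red M (blockCoeff {θ} (i c))) {m : ℕ}
    (hm : classInner (fun c => θ.1 (i c)) φ.1 = m) : ¬ p ∣ m := by
  intro hpm
  have hθ := lamClosed_of_not_dvd hM hK {θ}
  have hφ := lamClosed_of_not_dvd hM hC {φ}
  have h1 : val M (∑ c, (blockCoeff {φ} c - blockCoeff {θ} (i c)) * φ.1 c) < 1 :=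
    val_sum_lt_one fun c _ => val_mul_lt_one_left
      ((red_eq_iff (blockCoeff_mem_Vr_of_lamClosed hφ c)
        (blockCoeff_mem_Vr_of_lamClosed hθ _)).1 (h c)) (H17.irr_mem_Vr φ c)
  have hc0 : (Nat.card C : ℂ) ≠ 0 := Nat.cast_ne_zero.2 Nat.card_pos.ne'
  have h2 : ∑ c, φ.1 c * conj (φ.1 c) = Nat.card C := by
    rw [← H11.card_mul_classInner, H11.classInner_irr_self φ.2, mul_one]
  have h3 : ∑ c, φ.1 c * conj (θ.1 (i c)) = Nat.card C * m := by
    rw [← H11.card_mul_classInner φ.1 (fun c => θ.1 (i c)), ← H11.conj_classInner, hm,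
      map_natCast]
  have h4 : ∑ c, (blockCoeff {φ} c - blockCoeff {θ} (i c)) * φ.1 c =
      φ.1 1 - (Nat.card K : ℂ)⁻¹ * θ.1 1 * Nat.card C * m := by
    simp only [blockCoeff, finsum_mem_singleton, sub_mul, Finset.sum_sub_distrib]
    have e1 : ∑ c, (Nat.card C : ℂ)⁻¹ * (φ.1 1 * conj (φ.1 c)) * φ.1 c =
        (Nat.card C : ℂ)⁻¹ * φ.1 1 * ∑ c, φ.1 c * conj (φ.1 c) := by
      rw [Finset.mul_sum]; exact Finset.sum_congr rfl fun c _ => by ring
    have e2 : ∑ c, (Nat.card K : ℂ)⁻¹ * (θ.1 1 * conj (θ.1 (i c))) * φ.1 c =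
        (Nat.card K : ℂ)⁻¹ * θ.1 1 * ∑ c, φ.1 c * conj (θ.1 (i c)) := by
      rw [Finset.mul_sum]; exact Finset.sum_congr rfl fun c _ => by ring
    rw [e1, e2, h2, h3]
    field_simp
  rw [h4] at h1
  have h5 : val M ((Nat.card K : ℂ)⁻¹ * θ.1 1 * Nat.card C * m) < 1 :=
    val_mul_lt_one_right (mul_mem (mul_mem (inv_natCast_mem_Vr hM hK) (H17.irr_mem_Vr θ 1))
      (natCast_mem_Vr _)) ((val_natCast_lt_one_iff hM m).2 hpm)
  have h6 := val_add_lt_one h1 h5
  rw [sub_add_cancel, H24.irr_deg φ.2, val_natCast_lt_one_iff hM] at h6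
  exact hC (h6.trans (H24.deg_dvd_card φ.2))

/-- an abelian Sylow subgroup of a `p`-solvable group is normal modulo the `p'`-core -/
theorem sup_Nz_eq_top (hG : IsPSolvable p G) (S : Sylow p G)
    (hS : ∀ x ∈ (S : Subgroup G), ∀ y ∈ (S : Subgroup G), x * y = y * x) :
    pPrimeCore p G ⊔ Nz (S : Subgroup G) = ⊤ := by
  set K := pPrimeCore p G
  let f := QuotientGroup.mk' K
  have hf : Function.Surjective f := QuotientGroup.mk'_surjective K
  set U := pCore p (G ⧸ K)
  haveI : U.Normal := inferInstance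
  have hC : Cz U ≤ U := H53.centralizer_pCore_le (H53.isPSolvable_quotient hG K)
    (H3.pPrimeCore_quotient_pPrimeCore p G)
  have h1 : (S : Subgroup G) ≤ U.comap f := by
    intro z hz
    refine hC (mem_Cz.2 fun u hu => ?_)
    obtain ⟨x, hx, rfl⟩ := H3.pCore_le_sylow (S.mapSurjective hf) hu
    rw [← map_mul, ← map_mul, hS x hx z hz]
  have h2 := S.normalizer_sup_eq_top' h1
  rw [← top_le_iff, ← h2]
  refine sup_le le_sup_right fun y hy => ?_
  obtain ⟨x, hx, he⟩ := H3.pCore_le_sylow (S.mapSurjective hf) hy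
  have h3 : y * x⁻¹ ∈ K := by
    rw [← QuotientGroup.eq_one_iff]
    change f (y * x⁻¹) = 1
    rw [map_mul, map_inv, ← he, mul_inv_cancel]
  rw [show y = y * x⁻¹ * x by group]
  exact Subgroup.mul_mem_sup h3 (Subgroup.le_normalizer hx)

/-- the normaliser in an overgroup, seen in two ways -/
def nzEquiv {G : Type u} [Group G] {P T : Subgroup G} (hPT : P ≤ T) {U : Subgroup (Nz P)}
    (hU : ∀ h : Nz P, h ∈ U ↔ (h : G) ∈ T) : Nz (P.subgroupOf T) ≃* U where
  toFun x := ⟨⟨x.1.1, by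
    exact (Subgroup.subgroupOf_normalizer_eq hPT).ge x.2⟩, (hU _).2 x.1.2⟩
  invFun y := ⟨⟨y.1.1, (hU _).1 y.2⟩, by
    exact (Subgroup.subgroupOf_normalizer_eq hPT).le y.1.2⟩
  left_inv _ := rfl
  right_inv _ := rfl
  map_mul' _ _ := rfl

end Aux

theorem red_aux (hP : PikStmt.{u}) (hC : CoreStmt.{u}) (p : ℕ) [Fact p.Prime] (M : Ideal AlgInt)
    (hM : IsPModular p M) (n : ℕ) : ∀ (G : Type u) [Group G] [Finite G], Nat.card G = n →
    IsPSolvable p G → ∀ B : Set (IrrCharacter G), IsPBlock M B → ∀ P : Subgroup G,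
    IsDefectGroup p M B P → (∀ x ∈ P, ∀ y ∈ P, x * y = y * x) →
    ∀ c : Set (IrrCharacter (Nz P)), IsDefectGroup p M c (P.subgroupOf (Nz P)) →
    IsInducedBlock M (Nz P) c B → PI p M c B := by
  induction n using Nat.strong_induction_on with
  | _ n ih =>
  intro G _ _ hn hG B hB P hD hab c hcD hcB
  haveI := Fintype.ofFinite G
  haveI := charP_kk hM
  have hmax : M.IsMaximal := hM.2.1
  have hc : IsPBlock M c := hcB.1
  have hcl := lamClosed_of_isPBlock hmax hc
  have hBl := lamClosed_of_isPBlock hmax hB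
  have hPp := dg_isPGroup hD
  have hce := bid_eq_br hM hPp hc hcD hcB
  set K := pPrimeCore p G
  have hKp : ¬ p ∣ Nat.card K := H3.not_dvd_card_pPrimeCore p G
  obtain ⟨b, hb, hPb, hcov, hbr, -⟩ :=
    exists_stable_covered hM K hBl hPp (dg_br_ne_zero hmax hB hD)
  have hbl := lamClosed_of_isPBlock hmax hb
  obtain ⟨b', hb', he⟩ := exists_glauberman_block hM hKp hb hPp hPb (H := Nz P)
    (le_antisymm (fun x hx => ⟨hx.1, mem_Cz_of_mem_Nz hKp hPp hx.1 hx.2⟩)
      (inf_le_inf_left K (Cz_le_Nz P)))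
  have hb'l := lamClosed_of_isPBlock hmax hb'
  have hstab := mem_stab_glau hM hKp hb hPp hPb hb' he
  by_cases hT : stab K b = ⊤
  · have hst : ∀ g, g ∈ stab K b := fun g => hT ▸ Subgroup.mem_top g
    have hst' : ∀ h, h ∈ stab (K.subgroupOf (Nz P)) b' := fun h => (hstab h).2 (hst _)
    haveI := H3.pPrimePCore_normal p G
    obtain ⟨k, hk⟩ := exists_relIndex_pPrimePCore (p := p) (G := G)
    have hB' := isPBlock_above_of_selfCent hM hKp (H3.pPrimeCore_le_pPrimePCore p G) hk
      (selfCent_of_isPSolvable hG) hb (fun g _ => hst g)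
    obtain ⟨χ, hχ⟩ := block_nonempty hmax hB
    have hBe : B = above K b := block_eq_of_mem hmax hB hB' hχ (hcov.subset hmax hB hb hχ)
    have hcc : c = above (K.subgroupOf (Nz P)) b' := by
      refine bid_inj hcl (lamClosed_above _ hb'l) ?_
      rw [hce, hBe, gid_above_of_stab b hst, ← he, ← gid_above_of_stab b' hst']
      rfl
    obtain ⟨S, hS⟩ := hPp.exists_le_sylow
    have hSP : (S : Subgroup G) = P := dg_eq_of_le hM hB hD S.isPGroup'
      (dg_br_ne_zero hmax hB (hBe ▸ isDefectGroup_sylow_above hM hKp hb hst hB' S)) hS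
    have htop : K ⊔ Nz P = ⊤ := by
      rw [← hSP]
      exact sup_Nz_eq_top hG S (hSP ▸ hab)
    have hKp' : ¬ p ∣ Nat.card (K.subgroupOf (Nz P)) := fun h => hKp (h.trans (by
      rw [H3.card_subgroupOf]; exact Subgroup.card_dvd_of_le inf_le_left))
    obtain ⟨θ, hθ⟩ := hb
    obtain ⟨φ, hφ⟩ := hb'
    rw [blockOf_eq_singleton_of_not_dvd hM hKp] at hθ
    rw [blockOf_eq_singleton_of_not_dvd hM hKp'] at hφ
    subst hθ hφ
    haveI : Fintype (K.subgroupOf (Nz P)) := Fintype.ofFinite _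
    obtain ⟨m, hm⟩ := H11.exists_nat_classInner
      (H11.isCharacter_comp (H11.isCharacter_of_irr θ.2)
        (((Nz P).subtype.comp (K.subgroupOf (Nz P)).subtype).codRestrict K fun c => c.2))
      (H11.isCharacter_of_irr φ.2)
    have hpm : ¬ p ∣ m := by
      refine not_dvd_mult hM hKp' hKp (fun c : K.subgroupOf (Nz P) => (⟨c.1.1, c.2⟩ : K)) θ φ
        (fun c => ?_) hm
      have h1 : (incl (Nz P) (bid M (K.subgroupOf (Nz P)) {φ})).coeff c.1.1 =
          (br P (bid M K {θ})).coeff c.1.1 := by rw [he]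
      rw [coeff_incl_coe, coeff_bid_coe,
        coeff_br_of_mem _ (mem_Cz_of_mem_Nz (k := c.1.1) hKp hPp c.2 c.1.2)] at h1
      rw [h1]
      exact coeff_bid_coe K {θ} ⟨c.1.1, c.2⟩
    rw [hcc, hBe]
    exact hC p M hM G K P hKp hPp hab htop θ (fun g => mem_stab_singleton.1 (hst g)) φ
      (fun h => mem_stab_singleton.1 (hst' h)) m hpm hm
  · obtain ⟨B', hB', hcov', hI, rfl⟩ := hcov.exists_fr hmax hb (le_stab K b) le_rfl hB
    have h1 := gid_mul_bid hmax hb _ (fun _ => Iff.rfl) hB' hcov' hI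
    have hD' : IsDefectGroup p M B' (P.subgroupOf (stab K b)) := by
      refine dg_of_br_of_card hM hB' (isPGroup_subgroupOf hPp _)
        ((br_subgroupOf_ne_zero_iff hPb _).2 (by rw [h1] at hbr; exact hbr)) ?_
      rw [card_subgroupOf_eq hPb, dg_card hM hB hD,
        hI.blockDefect_indSet Fact.out (block_nonempty hmax hB')]
    obtain ⟨c', hc'B, hc'D⟩ := exists_isInducedBlock_of_Nz_le hM le_rfl hB' hD'
    have hc' : IsPBlock M c' := hc'B.1
    have hIH := ih _ (hn ▸ card_lt_of_ne_top hT) _ rfl (H53.isPSolvable_subgroup hG _) B' hB' _ hD'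
      (fun x hx y hy => Subtype.ext (hab x hx y hy)) c' hc'D hc'B
    have h2 := bid_eq_br hM (dg_isPGroup hD') hc' hc'D hc'B
    have h3 : incl (Nz P) (gid M c * bid M (K.subgroupOf (Nz P)) b') =
        br P (bid M (stab K b) B') := by
      rw [map_mul, he, ← h1, br_mul hPp (fun g _ => cj_gid _ g)
        (fun g hg => (cj_bid_eq_iff hbl).2 (hPb hg)), ← hce]
      rfl
    have hcov1 : Covers (K.subgroupOf (Nz P)) c b' := by
      rw [covers_iff_mul_ne_zero hcl hb'l]
      intro h0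
      rw [h0, map_zero, ← h1] at h3
      exact hbr h3.symm
    haveI := Fintype.ofFinite (Nz P)
    obtain ⟨c₁, hc₁, hcov₁, hI₁, hce₁⟩ := hcov1.exists_fr hmax hb' (le_stab _ b') le_rfl hc
    have h4 := gid_mul_bid hmax hb' _ (fun _ => Iff.rfl) hc₁ hcov₁ hI₁
    rw [← hce₁] at h4
    have h5 : incl (Nz P) (bid M _ c₁) = incl (stab K b) (bid M _ c') := by
      rw [← h4, h3, h2, incl_br_subgroupOf hPb]
      rfl
    let e := nzEquiv hPb hstab
    have h6 : irrMap e '' c' = c₁ := by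
      refine gid_inj' hmax (isPBlock_image e hc') hc₁ ?_
      ext y
      obtain ⟨x, rfl⟩ := e.surjective y
      have h7 : (incl (Nz P) (bid M _ c₁)).coeff x.1.1 =
          (incl (stab K b) (bid M _ c')).coeff x.1.1 := by rw [h5]
      rw [coeff_incl_coe (stab K b) _ x.1, coeff_bid_coe] at h7
      rw [coeff_gid, coeff_gid, blockCoeff_image, ← h7]
      exact ((coeff_incl_coe (Nz P) _ (e x).1).trans (coeff_bid_coe _ c₁ (e x)))
    have p1 : PI p M c c₁ := by
      rw [hce₁]
      exact hP.symm p M (hP.ind p M hM (lamClosed_of_isPBlock hmax hc₁) hI₁)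
    have p2 : PI p M c₁ c' := by
      rw [← h6]
      exact hP.symm p M (hP.iso p M hM e (lamClosed_of_isPBlock hmax hc'))
    exact hP.trans p M hM (hP.trans p M hM (hP.trans p M hM p1 p2) hIH)
      (hP.ind p M hM (lamClosed_of_isPBlock hmax hB') hI)

theorem red (hP : PikStmt.{u}) (hC : CoreStmt.{u}) : RedStmt.{u} :=
  fun p _ M hM G _ _ hG => red_aux hP hC p M hM _ G rfl hG

end Cfsg.Agent.H43.DsRed
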