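import Mathlib
import Cfsg.Agent.H6.E82Defs

/-! The pressure inequality and the existence of a fixed vector. -/

set_option autoImplicit false

namespace Cfsg.Agent.H43.E82Pr

open Cfsg.Agent.H6.E82 Module Finset

theorem se0 (m : ℕ → ℕ) : SE m 65 0 = m 0 := by
  have h : ∀ r < 64, EE 65 r 0 = if r = 0 then 1 else 0 := by decide +kernel
  rw [SE, sum_congr rfl fun r hr => by rw [h r (mem_range.1 hr)]]
  simp

theorem pw_eq {m : ℕ → ℕ} (h : ∀ r < 64, m (sg r) = m r) : pw m = 6 * m 1 := by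
  have h1 : m 2 = m 1 := h 1 (by decide)
  have h2 : m 4 = m 2 := h 2 (by decide)
  have h3 : m 8 = m 4 := h 4 (by decide)
  have h4 : m 16 = m 8 := h 8 (by decide)
  have h5 : m 32 = m 16 := h 16 (by decide)
  rw [pw]; omega

theorem pr (ser : SerStmt) (mult : MultStmt) (zz : ZzStmt) (perp : PerpStmt) (hfr : FrStmt)
    (pr1 : Pr1Stmt) : PrStmt := by
  intro p W _ _ _ ρ B fr hB hS hF m hm h0
  obtain ⟨s1, s2, s3⟩ := ser p W ρ
  have hx : ∀ {U n}, Mult ρ p U n → dm ρ (x0 p) 1 U = n 0 := fun h => by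
    simpa [se0] using h.1 0 (by decide)
  obtain ⟨M, hM, h1, h2, h3⟩ := pr1 (x0 p) W ρ fr hS
  obtain ⟨L, hL⟩ := s3 ⊥ [] M Ser.nil bot_le hM
  rw [List.append_nil] at hL
  have mL := (mult p W ρ M L hL).1
  have hne : M < ⊤ := lt_top_iff_ne_top.2 fun e => h0 (by rw [← hx hm, ← e, h2])
  obtain ⟨M', r, hst, -⟩ := s1 M ⊤ hM (fun _ _ _ => trivial) hne
  have hL' := Ser.cons hL hst
  have mL' := mult p W ρ M' _ hL'
  have h4 : dm ρ (x0 p) 1 M' ≠ 0 := fun e => by
    have e1 : M' = M := le_antisymm (h3 M' hst.2.2.1 e) hst.2.1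
    have e2 := mL'.2
    rw [e1, (mult p W ρ M L hL).2, List.map_cons, List.sum_cons] at e2
    have : 0 < dS r := card_pos.2 ⟨0, by simp [JS]⟩
    omega
  have h5 : L.count 0 = 0 := (hx mL).symm.trans h2
  rw [hx mL'.1] at h4
  have h6 : r = 0 := by
    by_contra hr
    exact h4 (by simp [h5, hr])
  subst h6
  have h7 := zz p W ρ M' _ hL'
  rw [hF, inf_bot_eq, finrank_bot] at h7
  have h8 := pw_eq (hfr p W ρ fr hS M _ h1 mL)
  have h9 := pw_eq (hfr p W ρ fr hS ⊤ m (fun _ _ => trivial) hm)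
  have hN : Inv ρ (B.orthogonal M) := fun g v hv n hn => by
    have e : ρ g (ρ g⁻¹ n) = n := by
      rw [← Module.End.mul_apply, ← map_mul, mul_inv_cancel, map_one, Module.End.one_apply]
    have : B (ρ g⁻¹ n) v = 0 := hv _ (hM g⁻¹ n hn)
    show B n (ρ g v) = 0
    rw [← e, hB.2.2, this]
  obtain ⟨L2, hL2⟩ := s3 ⊥ [] _ Ser.nil bot_le hN
  rw [List.append_nil] at hL2
  have h10 := perp p W ρ B hB M m _ _ hM hm mL (mult p W ρ _ L2 hL2).1
  have h11 := zz p W ρ _ _ hL2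
  rw [hF, inf_bot_eq, finrank_bot] at h11
  have a0 := h10 0 (by decide)
  have a1 := h10 1 (by decide)
  have a2 := h10 2 (by decide)
  have a4 := h10 4 (by decide)
  have a8 := h10 8 (by decide)
  have a16 := h10 16 (by decide)
  have a32 := h10 32 (by decide)
  simp only [pw, List.count_cons] at h7 h8 h9 h11
  simp at h7
  omega

end Cfsg.Agent.H43.E82Pr
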