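import Cfsg.Agent.H83.J4N

/-!
Packed evaluation of powers in `2^{1+12} · 3M₂₂ : 2` and a stack machine for conjugacy classes.
-/

set_option autoImplicit false
set_option maxRecDepth 1000000

namespace Cfsg.Agent.H43.JZ

open Cfsg.Agent.H42 Cfsg.Agent.H83 Cfsg.Agent.H83.J4

theorem fld_land (w a b i : ℕ) : fld w (Nat.land a b) i = fld w a i &&& fld w b i := by
  apply Nat.eq_of_testBit_eq; intro j
  show (fld w (a &&& b) i).testBit j = _
  simp only [testBit_fld, Nat.testBit_and]
  cases decide (j < w) <;> simp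

theorem fld_lor (w a b i : ℕ) : fld w (Nat.lor a b) i = fld w a i ||| fld w b i := by
  apply Nat.eq_of_testBit_eq; intro j
  show (fld w (a ||| b) i).testBit j = _
  simp only [testBit_fld, Nat.testBit_or]
  cases decide (j < w) <;> simp

theorem fld_xor' (w a b i : ℕ) : fld w (Nat.xor a b) i = fld w a i ^^^ fld w b i := fld_xor w a b i

theorem fld_mul_rep {k j b : ℕ} (hj : j < k) (hb : b < 4096) : fld 16 (Nat.mul b (rep k)) j = b := by
  show fld 16 (b * rep k) j = b
  rw [mul_comm, rep, packW_mul, fld_packW _ _ _ (fun _ _ => by omega) hj, one_mul]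

theorem fld_rep {k j : ℕ} (hj : j < k) : fld 16 (rep k) j = 1 := by
  rw [rep, fld_packW _ _ _ (fun _ _ => by omega) hj]

/-- one step of an or-fold -/
def fo1 (s x : ℕ) : ℕ := Nat.lor x (Nat.shiftRight x s)

/-- parities of the fields -/
def parP (C x : ℕ) : ℕ := Nat.land (fold1 1 (fold1 2 (fold1 4 (fold1 8 x)))) C

/-- the nonzero fields -/
def nzP (C x : ℕ) : ℕ := Nat.land (fo1 1 (fo1 2 (fo1 4 (fo1 8 x)))) C

theorem loc_x {X v p m s : ℕ} (h : ∀ t < m + s, X.testBit (p + t) = v.testBit t) :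
    ∀ t < m, (fold1 s X).testBit (p + t) = (fold1 s v).testBit t := fun t ht => by
  show (X ^^^ X >>> s).testBit _ = (v ^^^ v >>> s).testBit _
  rw [Nat.testBit_xor, Nat.testBit_xor, Nat.testBit_shiftRight, Nat.testBit_shiftRight,
    h t (by omega), ← h (s + t) (by omega), show s + (p + t) = p + (s + t) by omega]

theorem loc_o {X v p m s : ℕ} (h : ∀ t < m + s, X.testBit (p + t) = v.testBit t) :
    ∀ t < m, (fo1 s X).testBit (p + t) = (fo1 s v).testBit t := fun t ht => by
  show (X ||| X >>> s).testBit _ = (v ||| v >>> s).testBit _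
  rw [Nat.testBit_or, Nat.testBit_or, Nat.testBit_shiftRight, Nat.testBit_shiftRight,
    h t (by omega), ← h (s + t) (by omega), show s + (p + t) = p + (s + t) by omega]

theorem loc0 (X j : ℕ) : ∀ t < 8 + 8, X.testBit (16 * j + t) = (fld 16 X j).testBit t := fun t ht => by
  rw [testBit_fld, decide_eq_true (by omega : t < 16), Bool.true_and]

theorem fld_land_rep {k j : ℕ} (hj : j < k) (x : ℕ) :
    fld 16 (Nat.land x (rep k)) j = (x.testBit (16 * j + 0)).toNat := by
  show fld 16 (x &&& rep k) j = _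
  rw [land_rep, fld_packW _ _ _ (fun i _ => lt_of_le_of_lt (Bool.toNat_le _) (by norm_num)) hj]
  rfl

theorem chk_fold : allB (fun v => Bool.and
    (Nat.beq (par v) (Nat.land (fold1 1 (fold1 2 (fold1 4 (fold1 8 v)))) 1))
    (Nat.beq (iteB (Nat.beq v 0) 0 1) (Nat.land (fo1 1 (fo1 2 (fo1 4 (fo1 8 v)))) 1))) 4096 = true := by
  decide +kernel

theorem land_one (x : ℕ) : Nat.land x 1 = (x.testBit 0).toNat := by
  show x &&& 1 = _
  rw [Nat.and_one_is_mod, Nat.testBit_zero]
  rcases Nat.mod_two_eq_zero_or_one x with h | h <;> simp [h]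

theorem fld_parP {k j X : ℕ} (hj : j < k) (h : fld 16 X j < 4096) :
    fld 16 (parP (rep k) X) j = par (fld 16 X j) := by
  have h1 := of_allB chk_fold h
  simp only [Bool.and_eq_true, beq_iff] at h1
  rw [parP, fld_land_rep hj, h1.1, land_one,
    loc_x (m := 1) (loc_x (m := 2) (loc_x (m := 4) (loc_x (m := 8) (loc0 X j)))) 0 one_pos]

theorem fld_nzP {k j X : ℕ} (hj : j < k) (h : fld 16 X j < 4096) :
    fld 16 (nzP (rep k) X) j = if fld 16 X j = 0 then 0 else 1 := by
  have h1 := of_allB chk_fold h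
  simp only [Bool.and_eq_true, beq_iff, iteB_eq] at h1
  rw [nzP, fld_land_rep hj, h1.2, land_one,
    loc_o (m := 1) (loc_o (m := 2) (loc_o (m := 4) (loc_o (m := 8) (loc0 X j)))) 0 one_pos]

theorem packW_mod (f : ℕ → ℕ) (k : ℕ) :
    packW 16 f k % 65535 = (∑ j ∈ Finset.range k, f j) % 65535 := by
  induction k with
  | zero => rfl
  | succ k ih =>
    have h : 2 ^ (16 * k) % 65535 = 1 := by rw [pow_mul, Nat.pow_mod]; simp
    rw [packW_succ, Finset.sum_range_succ, Nat.add_mod, Nat.mul_mod, h, ih, mul_one, Nat.mod_mod,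
      ← Nat.add_mod, add_comm]

theorem pop_eq {k : ℕ} (hk : k < 65535) (x : ℕ) (f : ℕ → ℕ) (h : ∀ j < k, fld 16 x j = f j)
    (hf : ∀ j < k, f j ≤ 1) : Nat.mod (Nat.land x (rep k)) 65535 = ∑ j ∈ Finset.range k, f j := by
  show (x &&& rep k) % 65535 = _
  rw [land_rep, packW_mod, Finset.sum_congr rfl (g := f) fun j hj => ?_, Nat.mod_eq_of_lt]
  · calc _ ≤ ∑ j ∈ Finset.range k, 1 := Finset.sum_le_sum fun j hj => hf j (Finset.mem_range.1 hj)
      _ < _ := by simpa using hk
  · have h1 := Finset.mem_range.1 hj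
    have h2 := loc0 x j 0 (by norm_num)
    rw [add_zero, h j h1] at h2
    rw [h2]
    have := hf j h1
    generalize f j = a at *
    interval_cases a <;> rfl

theorem qf_xor {a b : ℕ} (ha : a < 4096) (hb : b < 4096) : qf (a ^^^ b) = qf a ^^^ qf b ^^^ bf a b := by
  rw [← cc_self (xor_lt12 ha hb), cc_left ha hb (xor_lt12 ha hb), cc_right a ha hb, cc_right b ha hb,
    cc_self ha, cc_self hb, ← cc_cc ha hb]
  simp only [Nat.xor_assoc, Nat.xor_comm, Nat.xor_left_comm]

/-- the action of a matrix with parity -/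
def actM (M o x : ℕ) : ℕ :=
  Nat.xor (mv M (lo x)) (Nat.shiftLeft (Nat.xor (hi x) (Nat.land o (qf (lo x)))) 12)

theorem act_actM (c x : ℕ) : act c x = actM (km c) (ko c) x := rfl

/-- the part in the extraspecial group of a power -/
def NN (M o a : ℕ) : ℕ → ℕ
  | 0 => 0
  | i + 1 => qm a (actM M o (NN M o a i))

/-- matrix powers -/
def PP (M : ℕ) : ℕ → ℕ
  | 0 => mI
  | i + 1 => mm M (PP M i)

/-- the final test -/
def fin (n N : ℕ) : ℕ := qf (lo N) ||| (((if lo N = 0 then 0 else 1) ^^^ 1) &&& (n % 2 ||| hi N))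

theorem lo_actM {M : ℕ} (h : okM M = true) (o x : ℕ) : lo (actM M o x) = mv M (lo x) := by
  show lo (mv M (lo x) ^^^ ((hi x ^^^ (o &&& qf (lo x))) <<< 12)) = _
  rw [lo_xor, lo_shift, Nat.xor_zero, lo_of_lt (mv_lt h (lo_lt x))]

theorem hi_actM {M : ℕ} (h : okM M = true) (o x : ℕ) :
    hi (actM M o x) = hi x ^^^ (o &&& qf (lo x)) := by
  show hi (mv M (lo x) ^^^ ((hi x ^^^ (o &&& qf (lo x))) <<< 12)) = _
  rw [hi_xor, hi_shift, hi_of_lt (mv_lt h (lo_lt x)), Nat.zero_xor]

theorem NN_lt {M o a : ℕ} (h : okM M = true) (ha : a < 8192) (i : ℕ) : NN M o a i < 8192 := by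
  induction i with
  | zero => show 0 < 8192; norm_num
  | succ i ih => exact qm_lt ha (lt_of_hi (by
      rw [hi_actM h]; exact xor_le_one (hi_le ih) (le_trans Nat.and_le_right (qf_le _))))

theorem fin_le {n N : ℕ} : fin n N ≤ 1 := by
  have h1 := qf_le (lo N)
  have h2 : ((if lo N = 0 then 0 else 1) ^^^ 1) &&& (n % 2 ||| hi N) ≤ 1 :=
    le_trans Nat.and_le_left (by split_ifs <;> simp)
  unfold fin
  generalize qf (lo N) = a at *
  generalize ((if lo N = 0 then 0 else 1) ^^^ 1) &&& (n % 2 ||| hi N) = b at *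
  interval_cases a <;> interval_cases b <;> simp

theorem fin_iff {n N : ℕ} (hN : N < 8192) :
    fin n N = 1 ↔ qf (lo N) = 1 ∨ (lo N = 0 ∧ (n % 2 = 1 ∨ hi N = 1)) := by
  have h1 := qf_le (lo N)
  have h2 := hi_le hN
  have h3 : n % 2 ≤ 1 := by omega
  unfold fin
  generalize qf (lo N) = a at *
  generalize hi N = b at *
  generalize n % 2 = c at *
  interval_cases a <;> interval_cases b <;> interval_cases c <;> split_ifs with h <;> simp [h]

/-- the loop over the powers -/
noncomputable def lp (C M oC A CA BA QA fuel : ℕ) : ℕ → ℕ → ℕ → ℕ → ℕ → ℕ :=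
  Nat.rec (motive := fun _ => ℕ → ℕ → ℕ → ℕ → ℕ → ℕ) (fun _ _ _ _ _ => 0)
    (fun _ ih S P N H Q => force (mvs C M N) fun V => force (Nat.xor A V) fun N' =>
      force (Nat.xor (Nat.xor H (Nat.land oC Q)) (parP C (Nat.land CA V))) fun H' =>
      force (Nat.xor (Nat.xor QA Q) (parP C (Nat.land BA V))) fun Q' =>
      force (mm M P) fun P' => force (Nat.xor S C) fun S' =>
      Bool.rec (ih S' P' N' H' Q') (Nat.succ (Nat.mod (Nat.land
        (Nat.lor Q' (Nat.land (Nat.xor (nzP C N') C) (Nat.lor S' H'))) C) 65535)) (Nat.beq P' mI)) fuel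

theorem lp_spec {k M o A CA BA QA : ℕ} (hk : k < 65535) (hM : okM M = true) (ho : o ≤ 1)
    (hq : ∀ v < 4096, qf (mv M v) = qf v) (hA : ∀ j < k, fld 16 A j < 4096)
    (hCA : ∀ j < k, fld 16 CA j = mv mC (fld 16 A j)) (hBA : ∀ j < k, fld 16 BA j = mv mB (fld 16 A j))
    (hQA : ∀ j < k, fld 16 QA j = qf (fld 16 A j)) (fuel : ℕ) : ∀ i S N H Q r,
    (∀ j < k, fld 16 S j = i % 2 ∧ fld 16 N j = lo (NN M o (fld 16 A j) i) ∧
      fld 16 H j = hi (NN M o (fld 16 A j) i) ∧ fld 16 Q j = qf (lo (NN M o (fld 16 A j) i))) →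
    lp (rep k) M (Nat.mul o (rep k)) A CA BA QA fuel S (PP M i) N H Q = r + 1 →
    ∃ n, i < n ∧ PP M n = mI ∧ (∀ m, i < m → m < n → PP M m ≠ mI) ∧
      r = ∑ j ∈ Finset.range k, fin n (NN M o (fld 16 A j) n) := by
  induction fuel with
  | zero => intro i S N H Q r _ h; exact absurd h (Nat.succ_ne_zero r).symm
  | succ fuel ih =>
    intro i S N H Q r hI h
    have hI' : ∀ j < k, fld 16 (Nat.xor S (rep k)) j = (i + 1) % 2 ∧
        fld 16 (Nat.xor A (mvs (rep k) M N)) j = lo (NN M o (fld 16 A j) (i + 1)) ∧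
        fld 16 (Nat.xor (Nat.xor H (Nat.land (Nat.mul o (rep k)) Q))
          (parP (rep k) (Nat.land CA (mvs (rep k) M N)))) j = hi (NN M o (fld 16 A j) (i + 1)) ∧
        fld 16 (Nat.xor (Nat.xor QA Q) (parP (rep k) (Nat.land BA (mvs (rep k) M N)))) j =
          qf (lo (NN M o (fld 16 A j) (i + 1))) := fun j hj => by
      obtain ⟨h1, h2, h3, h4⟩ := hI j hj
      have a := hA j hj
      have hV : fld 16 (mvs (rep k) M N) j = mv M (lo (NN M o (fld 16 A j) i)) := by
        rw [fld_mvs hj, h2, mv_eq _ (lo_lt _)]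
      have hV' := mv_lt hM (lo_lt (NN M o (fld 16 A j) i))
      have e : lo (NN M o (fld 16 A j) (i + 1)) = fld 16 A j ^^^ mv M (lo (NN M o (fld 16 A j) i)) := by
        rw [NN, lo_qm, lo_actM hM, lo_of_lt a]
      refine ⟨?_, ?_, ?_, ?_⟩
      · rw [fld_xor', h1, fld_rep hj]
        rcases Nat.mod_two_eq_zero_or_one i with e | e <;> rw [e, Nat.add_mod, e] <;> rfl
      · rw [fld_xor', hV, e]
      · rw [fld_xor', fld_xor', fld_parP hj (by rw [fld_land, hV]; exact land_lt12 _ hV'), fld_land,
          fld_land, fld_mul_rep hj (by omega), h3, h4, hCA j hj, hV, NN, hi_qm, hi_actM hM,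
          lo_actM hM, lo_of_lt a, hi_of_lt a, Nat.zero_xor]
        rfl
      · rw [fld_xor', fld_xor', fld_parP hj (by rw [fld_land, hV]; exact land_lt12 _ hV'), fld_land,
          h4, hQA j hj, hBA j hj, hV, e, qf_xor a hV', hq _ (lo_lt _)]
        rfl
    have e : lp (rep k) M (Nat.mul o (rep k)) A CA BA QA (fuel + 1) S (PP M i) N H Q =
        force (mvs (rep k) M N) fun V => force (Nat.xor A V) fun N' =>
        force (Nat.xor (Nat.xor H (Nat.land (Nat.mul o (rep k)) Q)) (parP (rep k) (Nat.land CA V))) fun H' =>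
        force (Nat.xor (Nat.xor QA Q) (parP (rep k) (Nat.land BA V))) fun Q' =>
        force (mm M (PP M i)) fun P' => force (Nat.xor S (rep k)) fun S' =>
        @Bool.rec (fun _ => ℕ) (lp (rep k) M (Nat.mul o (rep k)) A CA BA QA fuel S' P' N' H' Q')
          (Nat.succ (Nat.mod (Nat.land (Nat.lor Q' (Nat.land (Nat.xor (nzP (rep k) N') (rep k))
            (Nat.lor S' H'))) (rep k)) 65535)) (Nat.beq P' mI) := rfl
    rw [e] at h
    simp only [force_eq] at h
    by_cases hP : mm M (PP M i) = mI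
    · rw [beq_iff.2 hP] at h
      refine ⟨i + 1, Nat.lt_succ_self i, hP, fun m h1 h2 => by omega, ?_⟩
      refine (Nat.succ_injective h).symm.trans (pop_eq hk _ _ (fun j hj => ?_) fun _ _ => fin_le)
      obtain ⟨h1, h2, h3, h4⟩ := hI' j hj
      rw [fld_lor, fld_land, fld_lor, h1, h3, h4, fld_xor', fld_nzP hj (by rw [h2]; exact lo_lt _), h2,
        fld_rep hj]
      rfl
    · rw [beq_false_iff.2 hP] at h
      obtain ⟨n, h1, h2, h3, h4⟩ := ih (i + 1) _ _ _ _ r hI' h
      refine ⟨n, by omega, h2, fun m h5 h6 => ?_, h4⟩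
      rcases Nat.lt_or_ge (i + 1) m with h7 | h7
      · exact h3 m h7 h6
      · rw [show m = i + 1 by omega]; exact hP

/-- evaluation at a coset -/
noncomputable def ev (C My o b0 M B : ℕ) : ℕ :=
  force (mm My M) fun Mc => force (Nat.xor (mvs C My B) (Nat.mul b0 C)) fun A =>
    force (mvs C mC A) fun CA => force (mvs C mB A) fun BA =>
    force (parP C (Nat.land (mvs C mQ A) A)) fun QA => force (Nat.mul o C) fun oC =>
    lp C Mc oC A CA BA QA 40 0 mI 0 0 0

theorem ev_spec {k My o b0 M B r : ℕ} (hk : k < 65535) (hy : okM My = true) (ho : o ≤ 1)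
    (hb : b0 < 4096) (hq : ∀ v < 4096, qf (mv (mm My M) v) = qf v) (b : ℕ → ℕ)
    (hB : ∀ j < k, fld 16 B j = b j ∧ b j < 4096) (h : ev (rep k) My o b0 M B = r + 1) :
    ∃ n, 0 < n ∧ PP (mm My M) n = mI ∧ (∀ m, 0 < m → m < n → PP (mm My M) m ≠ mI) ∧
      r = ∑ j ∈ Finset.range k, fin n (NN (mm My M) o (b0 ^^^ mv My (b j)) n) := by
  have hA : ∀ j < k, fld 16 (Nat.xor (mvs (rep k) My B) (Nat.mul b0 (rep k))) j = b0 ^^^ mv My (b j) :=
    fun j hj => by
      rw [fld_xor', fld_mvs hj, fld_mul_rep hj hb, (hB j hj).1, ← mv_eq _ (hB j hj).2, Nat.xor_comm]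
  have hA' : ∀ j < k, fld 16 (Nat.xor (mvs (rep k) My B) (Nat.mul b0 (rep k))) j < 4096 :=
    fun j hj => by rw [hA j hj]; exact xor_lt12 hb (mv_lt hy (hB j hj).2)
  unfold ev at h
  simp only [force_eq] at h
  obtain ⟨n, h1, h2, h3, h4⟩ := lp_spec hk (okM_mm hy M) ho hq hA'
    (fun j hj => by rw [fld_mvs hj, mv_eq _ (hA' j hj)])
    (fun j hj => by rw [fld_mvs hj, mv_eq _ (hA' j hj)])
    (fun j hj => by
      rw [fld_parP hj (by rw [fld_land]; exact land_lt12 _ (hA' j hj)), fld_land, fld_mvs hj,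
        ← mv_eq _ (hA' j hj), ← qf_eq_par (hA' j hj)]) 40 0 0 0 0 0 r
    (fun j hj => by
      rw [fld_zero, NN]
      exact ⟨rfl, rfl, rfl, by decide +kernel⟩) h
  exact ⟨n, h1, h2, h3, h4.trans (Finset.sum_congr rfl fun j hj => by rw [hA j (Finset.mem_range.1 hj)])⟩

/-! ### The stack machine -/

/-- the visited states -/
def vis {S : Type} (step : ℕ → S → S) : List ℕ → List S → List S
  | [], _ => []
  | _ :: _, [] => []
  | op :: ops, s :: st => if op ≤ 5 then step op s :: vis step ops (step op s :: s :: st)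
      else vis step ops st

theorem vis_map {S T : Type} (f : S → T) {step : ℕ → S → S} {step' : ℕ → T → T}
    (h : ∀ op s, f (step op s) = step' op (f s)) (ops : List ℕ) (st : List S) :
    (vis step ops st).map f = vis step' ops (st.map f) := by
  induction ops generalizing st with
  | nil => rfl
  | cons op ops ih =>
    cases st with
    | nil => rfl
    | cons s st =>
      rw [List.map_cons, vis, vis]
      split_ifs
      · rw [List.map_cons, ih, List.map_cons, List.map_cons, h]
      · exact ih st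

theorem vis_inv {S : Type} {step : ℕ → S → S} (R : S → Prop)
    (h : ∀ op < 6, ∀ s, R s → R (step op s)) (ops : List ℕ) (st : List S) (hs : ∀ s ∈ st, R s) :
    ∀ s ∈ vis step ops st, R s := by
  induction ops generalizing st with
  | nil => intro s hs; cases hs
  | cons op ops ih =>
    cases st with
    | nil => intro s hs; cases hs
    | cons s st =>
      rw [vis]
      split_ifs with h5
      · have h1 := h op (by omega) s (hs s List.mem_cons_self)
        exact List.forall_mem_cons.2 ⟨h1, ih _ (List.forall_mem_cons.2 ⟨h1, hs⟩)⟩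
      · exact ih st fun t ht => hs t (List.mem_cons_of_mem _ ht)

/-- the inverses of the generating matrices -/
def MIL : List ℕ := [98084204366510508897346204619713057421548153854581014866, 196160925811833396183487763776870949647059211194492715773, 196160925824633840855001319516555925109459904324610686977, 196160925809960161151728660352757322820643675421672079361, 35919014442283543040728997622985103424625531135025613174, 98082707770859346327246828029346172591536940499518161234]

/-- conjugation of matrices -/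
noncomputable def cjM (g M : ℕ) : ℕ := mm (mm (nth ML g) M) (nth MIL g)

/-- the step on cosets with packs -/
noncomputable def stp (C g : ℕ) (s : ℕ × ℕ) : ℕ × ℕ := (cjM g s.1, mvs C (nth ML g) s.2)

/-- summation over the visited states -/
noncomputable def runV (C : ℕ) (f : ℕ → ℕ → ℕ) (t : ℕ) (ops : List ℕ) : List (ℕ × ℕ) → ℕ → Bool :=
  List.rec (motive := fun _ => List (ℕ × ℕ) → ℕ → Bool) (fun _ acc => Nat.beq acc t)
    (fun op _ ih st acc => List.rec (motive := fun _ => Bool) (Nat.beq acc t)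
      (fun s st' _ => Bool.rec (ih st' acc)
        (force (cjM op s.1) fun M => force (mvs C (nth ML op) s.2) fun B =>
          Nat.rec false (fun r _ => force (Nat.add acc r) fun acc' => ih ((M, B) :: s :: st') acc')
            (f M B)) (Nat.ble op 5)) st) ops

theorem runV_spec {C t : ℕ} {f : ℕ → ℕ → ℕ} (ops : List ℕ) (st : List (ℕ × ℕ)) (acc : ℕ)
    (h : runV C f t ops st acc = true) : (∀ s ∈ vis (stp C) ops st, f s.1 s.2 = (f s.1 s.2 - 1) + 1) ∧
      acc + ((vis (stp C) ops st).map fun s => f s.1 s.2 - 1).sum = t := by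
  induction ops generalizing st acc with
  | nil => exact ⟨fun s hs => (nomatch hs), beq_iff.1 h⟩
  | cons op ops ih =>
    cases st with
    | nil => exact ⟨fun s hs => (nomatch hs), beq_iff.1 h⟩
    | cons s st =>
      have e : runV C f t (op :: ops) (s :: st) acc = @Bool.rec (fun _ => Bool) (runV C f t ops st acc)
        (force (cjM op s.1) fun M => force (mvs C (nth ML op) s.2) fun B =>
          @Nat.rec (fun _ => Bool) false (fun r _ => force (Nat.add acc r) fun acc' =>
            runV C f t ops ((M, B) :: s :: st) acc') (f M B)) (Nat.ble op 5) := rfl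
      rw [e] at h
      rw [vis]
      split_ifs with h5
      · rw [ble_iff.2 h5] at h
        simp only [force_eq] at h
        have e1 : f (cjM op s.1) (mvs C (nth ML op) s.2) = f (stp C op s).1 (stp C op s).2 := rfl
        rw [e1] at h
        rcases hf : f (stp C op s).1 (stp C op s).2 with _ | r
        · rw [hf] at h; exact absurd h Bool.false_ne_true
        · rw [hf] at h
          obtain ⟨h1, h2⟩ := ih _ _ (show runV C f t ops (stp C op s :: s :: st) (acc + r) = true from h)
          refine ⟨List.forall_mem_cons.2 ⟨by rw [hf]; rfl, h1⟩, ?_⟩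
          rw [List.map_cons, List.sum_cons, hf, ← h2, Nat.add_sub_cancel, add_assoc]
      · rw [ble_false_iff.2 (by omega)] at h
        exact ih st acc h

/-- the list of the visited matrices -/
noncomputable def visK {β : Type} (k : List ℕ → β) (ops : List ℕ) : List ℕ → List ℕ → β :=
  List.rec (motive := fun _ => List ℕ → List ℕ → β) (fun _ acc => k acc)
    (fun op _ ih st acc => List.rec (motive := fun _ => β) (k acc)
      (fun s st' _ => Bool.rec (ih st' acc)
        (force (cjM op s) fun M => ih (M :: s :: st') (M :: acc)) (Nat.ble op 5)) st) ops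

theorem visK_eq {β : Type} (k : List ℕ → β) (ops st acc : List ℕ) :
    visK k ops st acc = k ((vis cjM ops st).reverse ++ acc) := by
  induction ops generalizing st acc with
  | nil => rfl
  | cons op ops ih =>
    cases st with
    | nil => rfl
    | cons s st =>
      have e : visK k (op :: ops) (s :: st) acc = @Bool.rec (fun _ => β) (visK k ops st acc)
        (force (cjM op s) fun M => visK k ops (M :: s :: st) (M :: acc)) (Nat.ble op 5) := rfl
      rw [e, vis]
      split_ifs with h5
      · rw [ble_iff.2 h5, force_eq]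
        refine (ih _ _).trans ?_
        simp
      · rw [ble_false_iff.2 (by omega)]; exact ih st acc

/-- insertion of distinct numbers -/
noncomputable def insAll (k : BT → Bool) (l : List ℕ) : BT → Bool :=
  List.rec (motive := fun _ => BT → Bool) k (fun a _ ih t => t.insK a false ih) l

theorem insAll_spec {k : BT → Bool} (l : List ℕ) (t : BT) (h : insAll k l t = true) :
    l.Nodup ∧ (∀ x ∈ l, t.mem x ≠ true) ∧
      ∃ t', (∀ x, t'.mem x = true ↔ t.mem x = true ∨ x ∈ l) ∧ k t' = true := by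
  induction l generalizing t with
  | nil => exact ⟨List.nodup_nil, fun _ hx => (nomatch hx), t, by simp, h⟩
  | cons a l ih =>
    have e : insAll k (a :: l) t = t.insK a false (insAll k l) := rfl
    rw [e, BT.insK_eq] at h
    split_ifs at h with hm
    obtain ⟨h1, h2, t', h3, h4⟩ := ih _ h
    refine ⟨List.nodup_cons.2 ⟨fun ha => h2 a ha ((BT.mem_ins _ _ _).2 (Or.inr rfl)), h1⟩,
      List.forall_mem_cons.2 ⟨hm, fun x hx hx' => h2 x hx ((BT.mem_ins _ _ _).2 (Or.inl hx'))⟩,
      t', fun x => by rw [h3, BT.mem_ins, List.mem_cons, or_assoc], h4⟩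

/-- digits in base eight -/
noncomputable def dec (n : ℕ) : ℕ → List ℕ :=
  Nat.rec (fun _ => []) (fun _ ih X => force X fun Y => Nat.land Y 7 :: ih (Nat.shiftRight Y 3)) n

/-- a class of matrices -/
noncomputable def cl (ops : List ℕ) (M : ℕ) : List ℕ := M :: vis cjM ops [M]

/-- closure check -/
noncomputable def clChk (ops : List ℕ) (M : ℕ) (gs : List ℕ) (n : ℕ) : Bool :=
  visK (fun l => Bool.and (Nat.beq (cntL (fun _ => true) l) n) (insAll (fun t =>
    allL (fun g => allL (fun x => force (cjM g x) t.mem) l) gs) l BT.nil)) ops [M] [M]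

theorem clChk_spec {ops gs : List ℕ} {M n : ℕ} (h : clChk ops M gs n = true) :
    (cl ops M).length = n ∧ ∀ g ∈ gs, ∀ x ∈ cl ops M, cjM g x ∈ cl ops M := by
  rw [clChk, visK_eq, Bool.and_eq_true, beq_iff, cntL_eq] at h
  obtain ⟨-, -, t, h1, h2⟩ := insAll_spec _ _ h.2
  refine ⟨by simpa [cl] using h.1, fun g hg x hx => ?_⟩
  have := allL_iff.1 (allL_iff.1 h2 g hg) x (by simpa [cl, or_comm] using hx)
  rw [force_eq, h1, BT.mem_nil] at this
  simpa [cl, or_comm] using this

end Cfsg.Agent.H43.JZ
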