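import Cfsg.Agent.H43.Mp
import Cfsg.Agent.H16.J4Cz
import Cfsg.Agent.H16.J4Out
import Cfsg.Agent.H46.J1
import Cfsg.Agent.H46.Cls2

/-! The Janko groups J₄ and J₁ are not the socle of a minimal parabolic. -/

set_option autoImplicit false
set_option maxRecDepth 100000

namespace Cfsg.Agent.H43

open Subgroup Cfsg.Agent.H57.MPS

theorem good_J4 : Good (⊤ : Subgroup Spor.J4) := by
  have := H16.J4C.finite_J4
  have := H16.J4C.simple_J4
  obtain ⟨z, P, h⟩ := H16.J4C.type_J4
  obtain ⟨J, -⟩ := H83.J4.exists_JL H16.J4C.not_comm_J4 h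
  have hc : Nat.card Spor.J4 = 86775571046077562880 := H46.J4.hub.isJ4.2
  have h1 := J.card_MH
  have h2 := J.card_HH
  refine good_top (k := 21) (m := 41377816699065) (hc.trans (by norm_num)) (by decide) (by decide)
    (by rw [h1]; norm_num) (fun e => ?_) (fun e => ?_) (H16.J4Out.gen_top J)
    (H16.J4Out.card_out H16.J4C.not_comm_J4 H16.J4C.type_J4)
  · rw [e, top_inf_eq, h2] at h1
    exact absurd h1 (by norm_num)
  · rw [e, card_top, hc] at h2
    exact absurd h2 (by norm_num)

open H46 H46.J1 in
theorem good_J1 : Good (⊤ : Subgroup Spor.J1) := by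
  have chk : (∀ j < 3, O.commB (genS j) c_t = true) ∧ O.commB c_a c_t = true ∧
      (∀ j < 3, O.conjB gX (genS j) (O.word genS ([[0, 2], [2], [0, 1, 2]].getD j [])) = true ∧
        H42.allL (fun j => ltB j 3) ([[0, 2], [2], [0, 1, 2]].getD j []) = true) ∧
      O.wordChk (getL [c_t, c_x, c_s, c_a, gX]) 5 [3, 4, 4, 1, 3, 4, 3, 4, 3, 4, 3, 2, 1] gY = true := by
    decide +kernel
  obtain ⟨c1, c2, c3, c4⟩ := chk
  have hS : S ≤ centralizer {t} := C.closure_le_centralizer R_t c1
  have tS := C.tab_closure ex_genS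
  have hX : eX ∈ normalizer (S : Set G) := by
    refine H46.closure_le_normalizer (S := {eX}) ?_ (subset_closure rfl)
    rintro _ rfl s ⟨j, hj, hs⟩
    obtain ⟨g, hg, hR⟩ := tS.word C _ (c3 j hj).2
    rwa [C.conj_of_conjB R_X hs hR (c3 j hj).1]
  have := isSimple
  refine good_top (Y₁ := centralizer {t}) (Y₂ := normalizer (S : Set G)) (k := 3) (m := 21945)
    (card_G.trans (by norm_num)) (by decide) (by decide)
    (card_S ▸ card_dvd_of_le (le_inf hS le_normalizer)) (fun e => ?_) (fun e => ?_) ?_ card_out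
  · have h := card_centralizer_t
    rw [e, card_top, card_G] at h
    exact absurd h (by norm_num)
  · have h := card_S
    rcases (normalizer_eq_top_iff.1 e).eq_bot_or_eq_top with e | e
    · rw [e, card_bot] at h
      exact absurd h (by norm_num)
    · rw [e, card_top, card_G] at h
      exact absurd h (by norm_num)
  · have hT : C.Tab (centralizer {t} ⊔ normalizer (S : Set G)) (getL [c_t, c_x, c_s, c_a, gX]) 5 :=
      fun j hj => by
        interval_cases j
        exacts [(tS 0 (by norm_num)).mono (hS.trans le_sup_left),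
          (tS 1 (by norm_num)).mono (hS.trans le_sup_left),
          (tS 2 (by norm_num)).mono (hS.trans le_sup_left),
          ⟨a, mem_sup_left (mem_centralizer_singleton_iff.2 ((C.commB_iff R_a R_t).1 c2)), R_a⟩,
          ⟨eX, mem_sup_right hX, R_X⟩]
    rw [eq_top_iff, ← closure_XY, closure_le]
    rintro _ (rfl | rfl)
    exacts [mem_sup_right hX, (hT.of_wordChk C c4).mem R_Y]

end Cfsg.Agent.H43
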