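import Cfsg.Agent.H18.RfDefs
import Cfsg.Agent.H42.Golay
import Cfsg.Agent.S0364

/-! Project RF: irreducibility of the module `2^11` (an element of order 23 acts freely). -/

set_option autoImplicit false

namespace Cfsg.Agent.H43.RfIrr

open Cfsg Subgroup Cfsg.Agent.H18.Rf
open Cfsg.Agent.H48 (IsWord)
open Cfsg.Agent.H42 (toSet toSet_xor card_toSet toSet_mem_codeSets mem_octads_iff)
open scoped symmDiff

universe u

variable {G : Type u} [Group G] [Finite G]

/-- counting fixed points of an element of prime order -/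
theorem card_modEq {p : ℕ} [Fact p.Prime] {n : G} (hn : n ^ p = 1) {B : Subgroup G}
    (hB : n ∈ NN B) : Nat.card B ≡ Nat.card ↥(B ⊓ C1 n) [MOD p] := by
  classical
  have := Fintype.ofFinite B
  let σ : MulAut B := B.normalizerMonoidHom ⟨n, hB⟩
  have h1 : MulAut.toPerm B σ ^ p ^ 1 = 1 := by
    rw [pow_one, ← map_pow, ← map_pow, show (⟨n, hB⟩ : NN B) ^ p = 1 from Subtype.ext hn, map_one,
      map_one]
  have h2 := Equiv.Perm.card_compl_support_modEq h1
  rw [Nat.card_eq_fintype_card]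
  refine h2.symm.trans ?_
  rw [← Fintype.card_coe, ← Nat.card_eq_fintype_card]
  have k : ∀ b : B, b ∈ (MulAut.toPerm B σ).supportᶜ ↔ (b : G) ∈ C1 n := fun b => by
    rw [Finset.mem_compl, Equiv.Perm.notMem_support, Subtype.ext_iff, mem_centralizer_singleton_iff,
      eq_comm (a := (b : G) * n), ← mul_inv_eq_iff_eq_mul]
    rfl
  rw [Nat.card_congr (β := ↥(B ⊓ C1 n)) ⟨fun b => ⟨b.1.1, b.1.2, (k _).1 b.2⟩,
    fun b => ⟨⟨b.1, b.2.1⟩, (k _).2 b.2.2⟩, fun _ => rfl, fun _ => rfl⟩]

theorem irr {V : Subgroup G} {ρ : NN V →* M24} (h : St V ρ) (B : Subgroup G) (hB : B ≤ V)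
    (hN : NN V ≤ NN B) : B = ⊥ ∨ B = V := by
  have : Fact (Nat.Prime 23) := ⟨by norm_num⟩
  obtain ⟨n, hn⟩ := exists_prime_orderOf_dvd_card' (G := NN V) 23
    (Dvd.dvd.trans (by rw [S0364.result]; norm_num) (card_dvd_of_surjective ρ h.sur))
  have h1 : (n : G) ^ 23 = 1 := by
    rw [← hn]; exact congrArg Subtype.val (pow_orderOf_eq_one n)
  have key : ∀ D : Subgroup G, D ≤ V → Nat.card D ≡ 1 [MOD 23] → D = ⊥ ∨ D = V := fun D hD e => by
    obtain ⟨k, hk, e'⟩ := (Nat.dvd_prime_pow Nat.prime_two).1 (h.card ▸ card_dvd_of_le hD)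
    have : k = 0 ∨ k = 11 := by
      rw [e'] at e
      interval_cases k <;> simp_all [Nat.ModEq]
    rcases this with rfl | rfl
    · exact .inl (card_eq_one.1 e')
    · exact .inr (eq_of_le_of_card_ge hD (by rw [e', h.card]))
  have h2 := card_modEq h1 n.2
  rcases key _ inf_le_left (h2.symm.trans (by rw [h.card]; decide)) with e | e
  · refine key B hB ((card_modEq h1 (hN n.2)).trans ?_)
    rw [eq_bot_iff.2 (e ▸ inf_le_inf_right _ hB : B ⊓ C1 (n : G) ≤ ⊥), card_bot]
  · have h3 : (n : G) ∈ V := h.cen.le (mem_centralizer_iff.2 fun v hv =>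
      mem_centralizer_singleton_iff.1 (e.ge hv).2)
    have h4 : n ^ 2 = 1 := Subtype.ext (by simpa [pow_two] using h.el _ h3)
    exact absurd (hn ▸ orderOf_dvd_of_pow_eq_one h4) (by norm_num)

theorem irrG : IrrGStmt.{u} := by
  intro G _ _ V ρ ψ h g
  have k : ∀ n, n < 2 ^ 24 → H42.isCode n = true → H42.pc n = 8 → toSet n ∈ octads :=
    fun n h1 h2 h3 => (mem_octads_iff _).2 ⟨toSet_mem_codeSets h2, by rw [card_toSet h1, h3]⟩
  have k1 := k 4845570 (by norm_num) (by decide +kernel) (by decide +kernel)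
  have k2 := k 13062145 (by norm_num) (by decide +kernel) (by decide +kernel)
  have k3 := k (Nat.xor 4845570 13062145) (by decide +kernel) (by decide +kernel)
    (by decide +kernel)
  refine ⟨irr h, _, k1, _, k2, _, k3, by rw [toSet_xor, g.add _ _ k1.1 k2.1], fun o ho e => ?_⟩
  have h8 : o.card = 8 := ho.2
  rcases (g.ker o ho.1).1 e with rfl | rfl
  · simp at h8
  · rw [Finset.card_univ, H42.card_pt] at h8
    omega

theorem irrT : IrrTStmt.{u} := by
  intro G _ _ V ρ ψ h g
  have k1 : (toSet 15).card = 4 := (card_toSet (by norm_num)).trans (by decide +kernel)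
  have k2 : (toSet 51).card = 4 := (card_toSet (by norm_num)).trans (by decide +kernel)
  have k3 : (toSet (Nat.xor 15 51)).card = 4 :=
    (card_toSet (by decide +kernel)).trans (by decide +kernel)
  refine ⟨irr h, _, _, _, k1, k2, k3,
    by rw [toSet_xor, g.add _ _ (by rw [k1]; decide) (by rw [k2]; decide)], fun s hs e => ?_⟩
  have := ((g.ker s (by rw [hs]; decide)).1 e).card_cases
  omega

end Cfsg.Agent.H43.RfIrr
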