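import Cfsg.Agent.H35.RfQ

/-! Project RF: from the facts on `V` to the facts on `Q`. -/

set_option autoImplicit false

namespace Cfsg.Agent.H43.RfLc

open Cfsg Subgroup Cfsg.Agent.H18.MaxOff Cfsg.Agent.H18.Rf Cfsg.Agent.H35.RF
open Cfsg.Agent.H49 (XS mem_zpowers_invol)
open scoped commutatorElement

universe u

theorem lc : LcStmt.{u} := by
  intro G _ _ V z W R Q h ql sq
  have WQ : W ≤ Q := ql.inf ▸ inf_le_left
  have QR : Q ≤ R := ql.sup ▸ le_sup_left
  have QM : Q ≤ MM V z := QR.trans h.RM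
  have zz : z * z = 1 := h.el z (h.WV h.zW)
  have iW : ∀ {x}, x ∈ Q → x ∈ V → x ∈ W := fun a b => ql.inf ▸ ⟨a, b⟩
  have dec : ∀ {B : Subgroup G}, B ≤ Q → B ⊔ V = R → ∀ r ∈ R, ∃ b ∈ B, ∃ v ∈ V, r = b * v :=
    fun hB e r hr => mem_sup_prod (fun _ hx => (QM (hB hx)).1) (e ▸ hr)
  have red : ∀ (b : G) {v v'}, v ∈ V → v' ∈ V → ⁅b * v', v⁆ = ⁅b, v⁆ := fun b v v' hv hv' => by
    rw [commutatorElement_def, commutatorElement_def, mul_assoc b, comm_of_sq h.el hv' hv]
    group
  have cw : ∀ x ∈ Q, x ∈ CC W → x ∈ W := fun x hx hc => iW hx (h.nw ⟨(QM hx).1, hc⟩)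
  have cen : ∀ x ∈ Q, x * z = z * x := fun x hx => mem_centralizer_singleton_iff.1 (QM hx).2
  have cent : ∀ x ∈ Q, (∀ y ∈ Q, x * y = y * x) → x ∈ zpowers z := fun x hx hc => by
    have hw := cw x hx (mem_centralizer_iff.2 fun w hw => (hc w (WQ hw)).symm)
    refine h.cz x hw fun r hr => ?_
    obtain ⟨b, hb, v, hv, rfl⟩ := dec le_rfl ql.sup r hr
    rw [mul_assoc, comm_of_sq h.el hv (h.WV hw), ← mul_assoc, ← hc b hb, mul_assoc]
  have xs : XS Q z := ⟨WQ h.zW, h.z1, zz, cen,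
    fun x hx hc => (mem_zpowers_invol zz).1 (cent x hx hc), fun x hx y hy => by
      have k : Commute (y * y) x := by
        rcases (mem_zpowers_invol zz).1 (sq y hy) with e | e <;> rw [e]
        · exact Commute.one_left x
        · exact (cen x hx).symm
      have m := mul_mem (mul_mem (inv_mem (sq x hx)) (inv_mem (sq y hy))) (sq _ (mul_mem hx hy))
      have e : x * y = y * x * ((x * x)⁻¹ * (y * y)⁻¹ * (x * y * (x * y))) := by
        calc x * y = y * x⁻¹ * (x * (y * y)⁻¹) * (y * (x * y)) := by group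
          _ = _ := by rw [← k.inv_left.eq]; group
      rcases (mem_zpowers_invol zz).1 m with e' | e' <;> rw [e'] at e
      · exact .inl (by simpa using e)
      · exact .inr e, by
      by_contra! hc
      exact h.Wz fun w hw => cent w (WQ hw) (hc w (WQ hw))⟩
  have nM : ∀ {A B : Subgroup G}, MM V z ≤ NN A → MM V z ≤ NN B → MM V z ≤ NN (A ⊓ B) :=
    fun a b m hm => mem_norm_of_le fun x hx =>
      ⟨(mem_normalizer_iff.1 (a hm) x).1 hx.1, (mem_normalizer_iff.1 (b hm) x).1 hx.2⟩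
  refine ⟨xs, h.WV h.zW, QM, ql.nQ, ql.inf, le_antisymm (fun x hx => cw x hx.1 hx.2)
    (le_inf WQ fun x hx => mem_centralizer_iff.2 fun w hw => comm_of_sq h.el (h.WV hw) (h.WV hx)),
    fun v hv x hx => ?_, h.syl, h.nv, fun m hm => ?_, fun B zB BQ nB => ?_, h.nw, h.big,
    fun V₀ a b c x hx => iW hx.1 (h.hyp V₀ a b c x (QR hx.1) hx.2.2), h.odd⟩
  · simpa [commutatorElement_def, mul_assoc] using inv_mem (h.RV x (QR hx) v hv)
  · obtain ⟨q, hq, v, hv, rfl⟩ := dec le_rfl ql.sup m (h.kW m hm.1 fun w hw => hm.2.2 w (WQ hw))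
    have k : q ∈ CM Q (zpowers z) := ⟨mem_norm_of_le fun _ ha =>
      xs.conj_mem_of_z_mem xs.Z_le (mem_zpowers z) hq ha, fun y hy => xs.commutator_mem hq hy⟩
    refine mul_mem hq (WQ (h.cv v hv fun r hr => ?_))
    obtain ⟨b, hb, v', hv', rfl⟩ := dec le_rfl ql.sup r hr
    rw [red b hv hv', ← commutatorElement_inv]
    exact inv_mem (((mul_mem_cancel_left k).1 hm.2).2 b hb)
  · by_cases BW : B ≤ W
    · exact (h.iW B zB BW nB).imp_right .inl
    have e : B ⊔ V = R := (h.iR _ le_sup_right (sup_le (BQ.trans QR) h.VR) fun m hm =>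
      mem_norm_of_le fun x hx => by
        obtain ⟨b, hb, v, hv, rfl⟩ := mem_sup_prod (fun _ hx => (QM (BQ hx)).1) hx
        have := mul_mem (mem_sup_left (T := V) ((mem_normalizer_iff.1 (nB hm) b).1 hb))
          (mem_sup_right ((mem_normalizer_iff.1 hm.1 v).1 hv))
        simpa [mul_assoc] using this).resolve_left fun e =>
      BW fun x hx => iW (BQ hx) (e ▸ mem_sup_left hx)
    rcases h.iW (B ⊓ W) ⟨zB, h.zW⟩ inf_le_right (nM nB h.nW) with k | k
    · have : V ≤ W := fun v hv => h.cv v hv fun r hr => by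
        obtain ⟨b, hb, v', hv', rfl⟩ := dec BQ e r hr
        rw [red b hv hv', ← k]
        refine ⟨?_, h.RV b (QR (BQ hb)) v hv⟩
        have := mul_mem hb ((mem_normalizer_iff.1 (nB (h.RM (h.VR hv))) _).1 (inv_mem hb))
        simpa [commutatorElement_def, mul_assoc] using this
      have h1 := card_le_of_le this
      have h2 := h.big
      have h3 := h.cV
      omega
    · refine .inr (.inr (BQ.antisymm fun q hq => ?_))
      obtain ⟨b, hb, v, hv, rfl⟩ := dec BQ e q (QR hq)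
      exact mul_mem hb (k.ge (iW ((mul_mem_cancel_left (BQ hb)).1 hq) hv)).1

end Cfsg.Agent.H43.RfLc
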