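import Cfsg.Agent.H18.RfSc
import Cfsg.Agent.H49.XSDual
import Cfsg.Agent.H1.Card

/-! Project RF: weak closure of `Q` in the centralizer, cocode case. -/

set_option autoImplicit false

namespace Cfsg.Agent.H43.RfWqT

open Cfsg Subgroup Cfsg.Agent.H18.MaxOff Cfsg.Agent.H18.Rf
open Cfsg.Agent.H49 (XS LX)
open scoped Pointwise

universe u

variable {G : Type u} [Group G] [Finite G] {V Q W : Subgroup G} {z ω : G}

/-- a 2-subgroup of `C(z) ∩ N(Q)` is conjugate into `MM V z` -/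
theorem into_M (h2 : ∀ v ∈ V, v * v = 1) (wc : WC V) (lc : LC V z Q W) {R : Subgroup G}
    (hR : IsPGroup 2 R) (h1 : R ≤ C1 z ⊓ NN Q) : ∃ h ∈ C1 z ⊓ NN Q, cj h R ≤ MM V z := by
  have : Fact (Nat.Prime 2) := ⟨Nat.prime_two⟩
  have hV : V ≤ C1 z ⊓ NN Q := fun v hv => by
    have k : v ∈ C1 z := mem_centralizer_singleton_iff.2 (comm_of_sq h2 hv lc.zV)
    exact ⟨k, lc.mq ⟨le_normalizer hv, k⟩⟩
  obtain ⟨S, hS⟩ := ((pg_of_sq h2).comap_subtype (K := C1 z ⊓ NN Q)).exists_le_sylow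
  obtain ⟨S', hS'⟩ := (hR.comap_subtype (K := C1 z ⊓ NN Q)).exists_le_sylow
  obtain ⟨h, e⟩ := MulAction.exists_smul_eq ↥(C1 z ⊓ NN Q) S' S
  have k := wc.le_norm (S.2.map (C1 z ⊓ NN Q).subtype) fun v hv => ⟨⟨v, hV hv⟩, hS hv, rfl⟩
  refine ⟨h, h.2, ?_⟩
  rintro _ ⟨x, hx, rfl⟩
  have m : h * ⟨x, h1 hx⟩ * h⁻¹ ∈ (S : Subgroup ↥(C1 z ⊓ NN Q)) := by
    rw [← e, Sylow.coe_subgroup_smul]
    exact smul_mem_pointwise_smul _ (MulAut.conj h) _ (hS' hx)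
  exact ⟨k ⟨_, m, rfl⟩, (C1 z).mul_mem ((C1 z).mul_mem h.2.1 (h1 hx).1) ((C1 z).inv_mem h.2.1)⟩

theorem mem_ct (xs : XS Q z) {S : Set G} {x : G} : x ∈ Q ⊓ CM S (zpowers z) ↔
    x ∈ Q ∧ ∀ y ∈ S, x * y * x⁻¹ * y⁻¹ ∈ zpowers z :=
  ⟨fun h => ⟨h.1, h.2.2⟩, fun h => ⟨h.1, mem_norm_of_le fun _ ha =>
    xs.conj_mem_of_z_mem xs.Z_le (mem_zpowers z) h.1 ha, h.2⟩⟩

theorem core (tk : TkStmt.{u}) (xh : XsHStmt.{u}) (lc : LC V z Q W) (lt : LT V z Q W ω)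
    {R : Subgroup G} (xr : XS R z) (cR : Nat.card R = 2 ^ 13) (hR : R ≤ MM V z) : R ≤ Q := by
  by_contra hn
  obtain ⟨y0, y1, y2⟩ := SetLike.not_le_iff_exists.1 hn
  have xs := lc.xs
  have rn : R ≤ NN Q := hR.trans lc.mq
  have sq : ∀ y ∈ R, y * y ∈ Q := fun y hy => xs.Z_le (xr.sq_mem hy)
  obtain ⟨ta, tb, tc, td⟩ := tk G Q z ω xs (lc.mq lt.om) lt.om.2 lt.o3 lt.fp
  obtain ⟨C, hC⟩ : ∃ C, C = Q ⊓ CM R (zpowers z) := ⟨_, rfl⟩
  have mC : ∀ {x}, x ∈ C ↔ x ∈ Q ∧ ∀ y ∈ R, x * y * x⁻¹ * y⁻¹ ∈ zpowers z := hC ▸ mem_ct xs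
  have CQ : C ≤ Q := fun _ h => (mC.1 h).1
  have Cy : ∀ y ∈ R, C ≤ Q ⊓ CM {y} (zpowers z) := fun y hy x hx =>
    (mem_ct xs).2 ⟨CQ hx, by rintro _ rfl; exact (mC.1 hx).2 _ hy⟩
  have DC : R ⊓ Q ≤ C := fun x hx => mC.2 ⟨hx.2, fun y hy => xr.commutator_mem hx.1 hy⟩
  have zC : z ∈ C := DC ⟨xr.mem, xs.mem⟩
  have c8 : 2 ^ 8 ≤ Nat.card C := by
    have h1 := lt.r5 (R ⊔ Q) le_sup_right (sup_le hR lc.qm) fun p hp => by
      obtain ⟨y, hy, a, ha, rfl⟩ := mem_sup_prod rn hp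
      have := mul_mem (mul_mem (sq y hy) ((mem_normalizer_iff''.1 (rn hy) a).1 ha)) ha
      simpa [mul_assoc] using this
    have h2 := H1.card_sup_mul_card_inf_of_le_normalizer rn
    have h3 := card_le_of_le DC
    rw [cR, lt.cQ] at h2
    have h4 := Nat.mul_le_mul h1 h3
    omega
  have wC : ω ∈ NN C := mem_norm_of_le fun x hx => mC.2
    ⟨(mem_normalizer_iff.1 (lc.mq lt.om) x).1 (CQ hx), fun y hy => by
      rcases lt.sl y (hR hy) with e | e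
      · exact ((mem_normalizer_iff.1 (tb y (rn hy) (hR hy).2 e).1 x).1 (Cy y hy hx)).2.2 y rfl
      · have h1 := ta y (rn hy) (hR hy).2 e
        have h2 := Nat.pow_le_pow_left (c8.trans (card_le_of_le (Cy y hy))) 2
        rw [lt.cQ] at h1
        omega⟩
  have c9 : Nat.card C = 2 ^ 9 := by
    have h1 := (card_le_of_le (Cy y0 y1)).trans (lt.r4 y0 (hR y1) y2 (sq y0 y1))
    have h2 := tc C zC CQ wC
    have h3 := H49.XS.card_mul_relIndex' C Q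
    rw [inf_eq_right.2 CQ, lt.cQ] at h3
    obtain ⟨k, -, e⟩ := (Nat.dvd_prime_pow Nat.prime_two).1 (Dvd.intro _ h3)
    rw [e] at c8 h1 h3 ⊢
    have h4 := (Nat.pow_le_pow_iff_right one_lt_two).1 c8
    have h5 := (Nat.pow_le_pow_iff_right one_lt_two).1 h1
    interval_cases k
    · omega
    · rfl
  have eC : ∀ y ∈ R, y ∉ Q → C = Q ⊓ CM {y} (zpowers z) := fun y hy h =>
    eq_of_le_of_card_ge (Cy y hy) (c9 ▸ lt.r4 y (hR hy) h (sq y hy))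
  have cP : Nat.card ↥(Q ⊓ CC C) = 32 := by
    have h : _ * Nat.card ↥(Q ⊓ CC C) = _ := xs.card_mul_card_centralizer_of_mem CQ zC
    rw [c9, lt.cQ] at h
    omega
  obtain ⟨t, tQ, tC, tP⟩ : ∃ t ∈ Q, t ∉ C ∧ t ∉ CC C := by
    obtain ⟨a, a1, a2⟩ := SetLike.not_le_iff_exists.1 (show ¬ Q ≤ C from fun e => by
      have := card_le_of_le e
      rw [c9, lt.cQ] at this
      omega)
    obtain ⟨b, b1, b2⟩ := SetLike.not_le_iff_exists.1 (show ¬ Q ≤ CC C from fun e => by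
      rw [inf_eq_left.2 e, lt.cQ] at cP
      omega)
    by_cases a3 : a ∈ CC C
    · by_cases b3 : b ∈ C
      · exact ⟨a * b, mul_mem a1 b1, mt (mul_mem_cancel_right b3).1 a2,
          mt (mul_mem_cancel_left a3).1 b2⟩
      · exact ⟨b, b1, b3, b2⟩
    · exact ⟨a, a1, a2, a3⟩
  have cm : ∀ y ∈ R, t * y * t⁻¹ * y⁻¹ ∈ C ⊓ CC C := fun y hy => by
    by_cases h : y ∈ Q
    · exact zpowers_le.2 (show z ∈ C ⊓ CC C from ⟨zC, (xs.z_mem_inf_centralizer CQ).2⟩)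
        (xs.commutator_mem tQ h)
    · rw [eC y hy h]
      exact (xh G Q z y xs (rn hy) (hR hy).2 (sq y hy)).2.1 t tQ
  have cK : Nat.card ↥(R ⊓ C1 t) ≤ 2 ^ 8 := by
    have h1 : R ⊓ C1 t ≤ C := fun y hy => DC ⟨hy.1, by_contra fun h => tC (by
      rw [eC y hy.1 h]
      refine (mem_ct xs).2 ⟨tQ, ?_⟩
      rintro _ rfl
      simp [← mem_centralizer_singleton_iff.1 hy.2])⟩
    obtain ⟨k, hk, e⟩ := (Nat.dvd_prime_pow Nat.prime_two).1 (c9 ▸ card_dvd_of_le h1)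
    rw [e]
    refine Nat.pow_le_pow_right two_pos (Nat.le_of_lt_succ (hk.lt_of_ne ?_))
    rintro rfl
    exact tP (mem_centralizer_iff.2 fun x hx => mem_centralizer_singleton_iff.1
      ((eq_of_le_of_card_ge h1 (by rw [e, c9])).ge hx).2)
  let f : R ⧸ (C1 t).subgroupOf R → ↥(Q ⊓ CC C) := fun q =>
    ⟨(t * q.out * t⁻¹ * (q.out : G)⁻¹)⁻¹, inv_mem ⟨CQ (cm _ q.out.2).1, (cm _ q.out.2).2⟩⟩
  have hf : Function.Injective f := fun q q' e => by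
    rw [← q.out_eq, ← q'.out_eq]
    refine QuotientGroup.eq.2 (mem_centralizer_singleton_iff.2 ?_)
    have e' : t * q.out * t⁻¹ * (q.out : G)⁻¹ = t * q'.out * t⁻¹ * (q'.out : G)⁻¹ :=
      inv_injective (congrArg Subtype.val e)
    generalize q.out = a at e'
    generalize q'.out = b at e'
    calc _ = t * (a : G)⁻¹ * t⁻¹ * (t * a * t⁻¹ * (a : G)⁻¹) * b * t := by simp [mul_assoc]
      _ = _ := by rw [e']; simp [mul_assoc]
  have hs := (hf.bijective_of_nat_card_le (by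
    have h1 := H49.XS.card_mul_relIndex' (C1 t) R
    have h2 := Nat.mul_le_mul_right ((C1 t).relIndex R) cK
    change _ ≤ (C1 t).relIndex R
    omega)).2
  have on : ∀ u ∈ Q ⊓ CC C, ∃ y ∈ R, u = (t * y * t⁻¹ * y⁻¹)⁻¹ := fun u hu =>
    let ⟨q, e⟩ := hs ⟨u, hu⟩
    ⟨_, q.out.2, (congrArg Subtype.val e).symm⟩
  refine tC (xs.centralizer_centralizer CQ zC ▸ ⟨tQ, mem_centralizer_iff.2 fun u hu => ?_⟩)
  have u2 : u * u = 1 := td u hu.1 (by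
    obtain ⟨y, hy, e⟩ := on u hu
    exact (mem_centralizer_iff.1 hu.2 _
      ((mem_normalizer_iff.1 wC u).1 (e ▸ inv_mem (cm y hy).1))).symm)
  obtain ⟨y, hy, e⟩ := on u hu
  have h1 : y * (t * t) = t * t * y := by
    rcases xs.sq tQ with k | k <;> rw [k]
    · simp
    · exact xr.cen y hy
  have h2 : u * t * (u * t) = t * t := by
    calc _ = y * (t * t) * y⁻¹ := by rw [e]; simp [mul_assoc]
      _ = _ := by rw [h1, mul_inv_cancel_right]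
  calc u * t = u * (u * t * u) := by rw [mul_right_cancel ((mul_assoc _ _ _).trans h2)]
    _ = t * u := by rw [mul_assoc, ← mul_assoc, u2, one_mul]

theorem wqT (tk : TkStmt.{u}) (xh : XsHStmt.{u}) : WqTStmt.{u} := by
  intro G _ _ V z Q W ω h2 wc lc lt c hc hn
  have xs : ∀ c ∈ C1 z, XS (cj c Q) z := fun c hc => by
    have := lc.xs.map_conj c
    rwa [mem_centralizer_singleton_iff.1 hc, mul_inv_cancel_right] at this
  obtain ⟨h, hh, k⟩ := into_M h2 wc lc (xs c hc).isPGroup (le_inf (xs c hc).le_centralizer hn)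
  rw [cj_cj] at k
  have e := eq_of_le_of_card_ge (core tk xh lc lt (xs _ (mul_mem hh.1 hc))
    ((card_cj _ _).trans lt.cQ) k) (card_cj _ _).ge
  rw [← inv_mul_cancel_left h c, ← cj_cj, e]
  exact mem_norm_iff.1 (inv_mem hh.2)

end Cfsg.Agent.H43.RfWqT
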