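import Cfsg.Agent.H74.UVDefs
import Cfsg.Agent.H5.UgCon

/-! The constituents of the components of the Weil character are constant on the torus, with a
small integer value (dimension eleven). -/

set_option autoImplicit false

namespace Cfsg.Agent.H43.UvCon

open Cfsg Cfsg.Agent.H11 Cfsg.Agent.H12 Cfsg.Agent.H74.UV Cfsg.Agent.H77.Sg
open scoped Classical ComplexConjugate

universe u

theorem int_val {P : Type u} [Group P] [Fintype P] {f : P → ℂ} (hf : IsCharacter P f)
    {μ : P →* ℂˣ} (hμ : μ ≠ 1) {c : ℂ} (hc : ∀ x, x ≠ 1 → f x = c) :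
    ∃ (m : ℕ) (k : ℤ), 0 ≤ (m : ℤ) + k ∧ c = k ∧ f 1 = m * Nat.card P + k := by
  obtain ⟨a, ha⟩ := exists_nat_classInner hf isCharacter_one
  obtain ⟨m, hm⟩ := exists_nat_classInner hf (isCharacter_monoidHom μ)
  have key : ∀ η : P → ℂ, (Nat.card P : ℂ) * classInner f η =
      c * conj (∑ g, η g) + (f 1 - c) * conj (η 1) := fun η => by
    rw [card_mul_classInner, map_sum, Finset.mul_sum, ← sub_eq_iff_eq_add', ← Finset.sum_sub_distrib,
      Finset.sum_eq_single 1 (fun g _ hg => by rw [hc g hg, sub_self]) (by simp), sub_mul]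
  have h1 := key fun _ => 1
  have h2 := key fun g => μ g
  rw [sum_irr_eq_zero (isIrrCharacter_monoidHom μ) fun e => hμ (MonoidHom.ext fun g =>
    Units.ext (congrFun e g)), hm] at h2
  rw [ha] at h1
  simp only [Finset.sum_const, Finset.card_univ, nsmul_eq_mul, mul_one, map_natCast, map_one,
    map_zero, mul_zero, zero_add, Units.val_one, ← Nat.card_eq_fintype_card] at h1 h2
  have h3 : c = a - m := mul_left_cancel₀ (card_ne_zero P) (by linear_combination h2 - h1)
  exact ⟨m, a - m, by omega, by push_cast; exact h3, by push_cast; linear_combination h3 - h2⟩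

theorem con (uc : H74.UV.UcStmt.{u}) (small : H74.UV.SmallStmt.{u}) : H74.UV.ConStmt.{u} := by
  intro E K _ _ _ _ _ σ B q R t G _ c z ν χ hχ h0
  have hPG : Pt E K t ≤ G := by
    rintro _ ⟨s, hs, rfl⟩
    exact (c.mem s).2 ⟨1, one_mem _, s, hs, (one_mul _).symm⟩
  obtain ⟨U, hP, hC, -, he, hτ⟩ := (uc E K σ B q R t G c).2 G hPG le_rfl
  have ht : Nat.card U.P = t := by
    rw [hP, Nat.card_congr (Subgroup.subgroupOfEquivOfLe hPG).toEquiv, c.cardPt]
  have he7 : U.e ≤ 11 := Nat.le_of_dvd (by decide) he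
  have t43 := c.t43
  have hπ : IsCharacter G fun g : G => ze q ν g.1 + dl ν := by
    have h1 := z.chr G c.le (fun s hs => (c.mem s).2 ⟨s, hs, 1, one_mem _, (mul_one _).symm⟩) ν
    rw [dl]
    split_ifs
    · exact isCharacter_add h1 isCharacter_one
    · simpa using h1
  have hd : charDegree (fun g : G => ze q ν g.1 + dl ν) = R * t := by
    rw [charDegree, OneMemClass.coe_one, z.deg, sub_add_cancel, Complex.natCast_re,
      Nat.floor_natCast]
  have h1 := SgX.exc G U _ χ hπ (fun d hd => ?_) (fun ψ hψ hk => ?_) hχ h0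
  · obtain ⟨x, hx⟩ : ∃ x : U.P, x ≠ 1 :=
      have := Finite.one_lt_card_iff_nontrivial.1 (by omega : 1 < Nat.card U.P)
      exists_ne 1
    obtain ⟨μ, hμ⟩ : ∃ μ : U.P →* ℂˣ, μ ≠ 1 :=
      have := SgX.fin_hom (U := U)
      have := Finite.one_lt_card_iff_nontrivial.1
        (by rw [UC.card_hom]; omega : 1 < Nat.card (U.P →* ℂˣ))
      exists_ne 1
    have h2 : ∀ y ∈ U.P, y ≠ 1 → χ y = χ x := fun y hy h => h1 y hy x x.2 h fun e => hx (Subtype.ext e)
    obtain ⟨m, k, hmk, h3, h4⟩ := int_val (isCharacter_restrict (H11.isCharacter_of_irr hχ) U.P) hμ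
      fun y hy => h2 y y.2 fun e => hy (Subtype.ext e)
    have h5 := H5.UgCon.bound U (fun d hd => by
      obtain ⟨a, ha⟩ := (hτ d).1 hd
      refine Subgroup.mem_center_iff.2 fun g => Subtype.ext (LinearEquiv.ext fun y => ?_)
      change g.1 (d.1.1 y) = d.1.1 (g.1 y)
      rw [ha, ha, map_smul]) hχ h2
    rw [h3, ht, Complex.norm_intCast] at h5
    rw [ht, OneMemClass.coe_one] at h4
    refine ⟨m, k, ?_, hmk, ?_, fun g hg h => (h2 g (hP ▸ hg) h).trans h3⟩
    · by_contra h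
      have h6 : (4 : ℝ) ≤ |(k : ℝ)| := by exact_mod_cast (by omega : 4 ≤ |k|)
      have h7 : (683 : ℝ) ≤ t := by exact_mod_cast t43
      have h8 : (U.e : ℝ) ≤ 11 := by exact_mod_cast he7
      have h9 : (16 : ℝ) ≤ |(k : ℝ)| ^ 2 := by nlinarith
      nlinarith
    · obtain ⟨n, hn⟩ := exists_nat_degree (H11.isCharacter_of_irr hχ)
      rw [charDegree, hn, Complex.natCast_re, Nat.floor_natCast]
      rw [hn] at h4
      exact_mod_cast h4
  · obtain ⟨a, ha⟩ : d.1 ∈ (mulH E K).range.subgroupOf G := hC ▸ d.2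
    change mulH E K a = d.1.1 at ha
    obtain ⟨w, hw, s, hs, e⟩ := (c.mem a).1 (ha ▸ d.1.2)
    rw [← ha, z.val ν a (e ▸ mul_mem (c.ZT hw) (c.PT hs)) fun h => hd ((hτ d).2 ?_), neg_add_cancel]
    obtain ⟨b, -, hb⟩ := c.zE a h
    exact ⟨b, fun y => by rw [← ha, mulH_apply, hb, Algebra.smul_def]⟩
  · have h2 := small E K σ B q R t G c ψ hψ (hP ▸ hk)
    have h3 : 11 * R + 1 < t := by
      have := c.big
      nlinarith [Nat.le_self_pow two_ne_zero (11 * R)]
    rw [hd, ht]
    obtain ⟨s, rfl⟩ : ∃ s, t = s + 1 := ⟨t - 1, by omega⟩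
    calc _ ≤ R * (s + 1) * 11 := Nat.mul_le_mul_left _ he7
      _ < (11 * R + 1) * s := by nlinarith
      _ ≤ _ := Nat.mul_le_mul_right _ h2

end Cfsg.Agent.H43.UvCon
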